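import Cfsg.Agent.ZStar.Theorem
import Cfsg.Agent.Coprime.Generation
import Cfsg.Agent.HallHigmanB.Linear
import Cfsg.Agent.OTensor90.Top

/-!
An isolated involution with a four-group, and unipotent elements of small degree on coprime linear groups.
-/

set_option autoImplicit false
set_option linter.unusedSectionVars false

namespace CfsgLib.OTensorSq17

open Cfsg

universe u

/-- A subgroup containing the centralisers of the three involutions of a four-group with an isolated member is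
everything. -/
theorem eq_top_of_isolated_four {G : Type u} [Group G] [Finite G] {t e : G} (K : Subgroup G) (ht : t * t = 1)
    (ht1 : t ≠ 1) (he : e * e = 1) (he1 : e ≠ 1) (hte : t ≠ e) (hc : t * e = e * t) (hiso : IsIsolated t)
    (ct : ∀ x, x * t = t * x → x ∈ K) (ce : ∀ x, x * e = e * x → x ∈ K)
    (cte : ∀ x, x * (t * e) = t * e * x → x ∈ K) : K = ⊤ := by
  classical
  have hord : orderOf t = 2 := orderOf_eq_prime (by rw [pow_two, ht]) ht1
  have hti : t⁻¹ = t := inv_eq_of_mul_eq_one_right ht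
  have hei : e⁻¹ = e := inv_eq_of_mul_eq_one_right he
  have h1 : e * (t * e) = t := by rw [hc, ← mul_assoc, he, one_mul]
  have h2 : t * (t * e) = e := by rw [← mul_assoc, ht, one_mul]
  have h3 : t * e * t = e := by rw [hc, mul_assoc, ht, mul_one]
  have h4 : t * e * e = t := by rw [mul_assoc, he, mul_one]
  have h5 : t * e * (t * e) = 1 := by rw [mul_assoc, h1, ht]
  let E : Subgroup G :=
    { carrier := {x | x = 1 ∨ x = t ∨ x = e ∨ x = t * e}
      one_mem' := Or.inl rfl
      mul_mem' := by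
        rintro a b (rfl | rfl | rfl | rfl) (rfl | rfl | rfl | rfl) <;>
          simp [ht, he, h1, h2, h3, h4, h5, ← hc]
      inv_mem' := by
        rintro a (rfl | rfl | rfl | rfl) <;> simp [hti, hei, mul_inv_rev, ← hc] }
  have hEmem : ∀ x, x ∈ E ↔ x = 1 ∨ x = t ∨ x = e ∨ x = t * e := fun x => Iff.rfl
  have hE2 : ∀ x ∈ E, x * x = 1 := by
    intro x hx
    rcases (hEmem x).1 hx with rfl | rfl | rfl | rfl
    exacts [one_mul 1, ht, he, h5]
  have hcomm : IsMulCommutative E := ⟨⟨fun a b => by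
    have := hE2 _ (a * b).2
    refine Subtype.ext ?_
    show (a : G) * b = b * a
    have ha := inv_eq_of_mul_eq_one_right (hE2 _ a.2)
    have hb := inv_eq_of_mul_eq_one_right (hE2 _ b.2)
    have hab := inv_eq_of_mul_eq_one_right this
    rw [Subgroup.coe_mul, mul_inv_rev, ha, hb] at hab
    exact hab.symm⟩⟩
  have hnc : ¬ IsCyclic E := by
    intro h
    obtain ⟨g, hg⟩ := h.exists_generator
    have hg2 : g ^ (2 : ℤ) = 1 := by
      rw [zpow_two]
      exact Subtype.ext (hE2 _ g.2)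
    have hall : ∀ x : E, x = 1 ∨ x = g := fun x => by
      obtain ⟨n, rfl⟩ := Subgroup.mem_zpowers_iff.1 (hg x)
      rcases Int.even_or_odd n with ⟨k, rfl⟩ | ⟨k, rfl⟩
      · left; rw [← two_mul, zpow_mul, hg2, one_zpow]
      · right; rw [zpow_add, zpow_mul, hg2, one_zpow, one_mul, zpow_one]
    have a1 := hall ⟨t, (hEmem t).2 (Or.inr (Or.inl rfl))⟩
    have a2 := hall ⟨e, (hEmem e).2 (Or.inr (Or.inr (Or.inl rfl)))⟩
    simp only [Subtype.ext_iff, Subgroup.coe_one] at a1 a2
    exact hte ((a1.resolve_left ht1).trans (a2.resolve_left he1).symm)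
  set O := pPrimeCore 2 G
  haveI : O.Normal := Cfsg.pPrimeCore_normal 2 G
  have hEc : ∃ n, Nat.card E = 2 ^ n :=
    IsPGroup.iff_card.1 fun x => ⟨1, Subtype.ext (by rw [pow_one, pow_two]; exact hE2 _ x.2)⟩
  obtain ⟨n, hn⟩ := hEc
  have hOK : O ≤ K := by
    refine CfsgLib.Coprime.le_of_centralizers hcomm hnc
      (fun x _ => by rw [Subgroup.normalizer_eq_top_iff.2 inferInstance]; trivial)
      (by rw [hn]; exact Nat.Coprime.pow_left _ CfsgLib.Constrained.pPrimeCore_coprime.symm) fun a ha ha1 x hx => ?_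
    have hxa : x * a = a * x := Subgroup.mem_centralizer_singleton_iff.1 hx.2
    rcases (hEmem a).1 ha with rfl | rfl | rfl | rfl
    exacts [absurd rfl ha1, ct _ hxa, ce _ hxa, cte _ hxa]
  refine eq_top_iff.2 fun g _ => ?_
  set v := g * t * g⁻¹ with hv
  have hvv : v * v = 1 := by rw [hv]; simp [mul_assoc, ← mul_assoc t t, ht]
  have hodd := (CfsgLib.ZStar.oddComm_of_isolated hord hiso).2 g
  have htv : t * v ∈ O := by
    have h6 := CfsgLib.ZStar.inZStar_of_isolated hord hiso g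
    have h7 := (inferInstance : O.Normal).conj_mem _ h6 t
    rw [hv]
    convert h7 using 1
    simp [hti, mul_assoc, ht]
  rcases CfsgLib.OTensor90.dihedral_cases ht hvv with ⟨s, hs⟩ | ⟨c, ⟨m, rfl⟩, hcc, hc1, -⟩
  · have hy : (t * v) ^ s ∈ K := hOK (O.pow_mem htv s)
    have hcen : g⁻¹ * (t * v) ^ s * t = t * (g⁻¹ * (t * v) ^ s) := by
      rw [mul_assoc, hs, hv]
      group
    have := K.mul_mem (ct _ hcen) (K.inv_mem hy)
    rw [mul_inv_cancel_right] at this
    exact inv_mem_iff.1 this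
  · refine absurd ?_ hc1
    have h8 : orderOf ((t * v) ^ m) ∣ 2 := orderOf_dvd_of_pow_eq_one (by rw [pow_two, hcc])
    have h9 : orderOf ((t * v) ^ m) ∣ orderOf (t * v) := orderOf_pow_dvd m
    exact orderOf_eq_one_iff.1 (Nat.eq_one_of_dvd_coprimes hodd.coprime_two_left h8 h9)

variable {F : Type*} [Field F] [Finite F] {V : Type*} [AddCommGroup V] [Module F V] [FiniteDimensional F V]

/-- For `p ≥ 5` an element of order `p` with cubic minimal polynomial centralises every `p'`-group it normalises. -/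
theorem commute_of_cube {p : ℕ} [hp : Fact p.Prime] [CharP F p] (h5 : 5 ≤ p) (K : Subgroup (V ≃ₗ[F] V))
    (hK : ¬ p ∣ Nat.card K) {u : V ≃ₗ[F] V} (hu : u ∈ Subgroup.normalizer (K : Set (V ≃ₗ[F] V))) (hup : u ^ p = 1)
    (hcube : ((u : V →ₗ[F] V) - 1 : Module.End F V) ^ 3 = 0) : ∀ k ∈ K, u * k = k * u := by
  classical
  intro k hk
  by_cases hu1 : u = 1
  · rw [hu1, one_mul, mul_one]
  have : Finite V := Module.finite_of_finite F
  have : Finite (V ≃ₗ[F] V) := Finite.of_injective (fun f : V ≃ₗ[F] V => (f : V → V)) DFunLike.coe_injective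
  set N := Subgroup.normalizer (K : Set (V ≃ₗ[F] V))
  set O := K.subgroupOf N with hO
  haveI : O.Normal := Subgroup.normal_in_normalizer
  have hOcard : ¬ p ∣ Nat.card O := by
    rwa [hO, Nat.card_congr (Subgroup.subgroupOfEquivOfLe Subgroup.le_normalizer).toEquiv]
  set x : N := ⟨u, hu⟩
  have hx : orderOf x = p := by
    rw [← Subgroup.orderOf_coe]
    exact orderOf_eq_prime hup hu1
  have hcop : (Nat.card (Subgroup.zpowers x)).Coprime (Nat.card O) := by
    rw [Nat.card_zpowers, hx]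
    exact hp.out.coprime_iff_not_dvd.2 hOcard
  by_contra hne
  have hxC : x ∉ Subgroup.centralizer (O : Set N) := fun h => hne
    (congrArg Subtype.val (Subgroup.mem_centralizer_iff.1 h ⟨k, Subgroup.le_normalizer hk⟩ hk)).symm
  obtain ⟨q, hq, hqO, Q, -, hQ, hxQ, s₀, hs₀, hmove⟩ :=
    CfsgLib.HallHigmanB.exists_sylow_moved O x hcop x hxC
  haveI := Fact.mk hq
  have hpq : p ≠ q := fun h => hOcard (h.symm ▸ hqO)
  have hinv : ∀ s ∈ Q, MulAut.conj x s ∈ Q := fun s hs => (Subgroup.mem_normalizer_iff.1 hxQ s).1 hs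
  set σ := CfsgLib.HallHigmanB.restrictAut (MulAut.conj x) Q hinv with hσ
  have hσi : ∀ (i : ℕ) (s : Q), (((σ ^ i) s : Q) : N) = x ^ i * s * (x ^ i)⁻¹ := fun i s => by
    rw [hσ, CfsgLib.HallHigmanB.restrictAut_pow_coe, ← map_pow, MulAut.conj_apply]
  obtain ⟨φ, hφ⟩ := CfsgLib.HallHigmanB.exists_extendScalars F V
  haveI : CharP (AlgebraicClosure F) p := inferInstance
  let ρ : N →* Module.End F V :=
    { toFun := fun g => ((g : V ≃ₗ[F] V) : V →ₗ[F] V)
      map_one' := rfl
      map_mul' := fun _ _ => rfl }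
  have hρ : Function.Injective ρ := fun a b h =>
    Subtype.ext (LinearEquiv.ext fun z => LinearMap.congr_fun h z)
  have hxp : x ^ p = 1 := hx ▸ pow_orderOf_eq_one x
  have hmain := CfsgLib.HallHigmanB.hallHigmanB_aux (k := AlgebraicClosure F) (p := p) (q := q) hpq _ Q
    (Fin (Module.finrank F V) → AlgebraicClosure F) σ 1 ((φ.toMonoidHom.comp ρ).comp Q.subtype) (φ (ρ x)) 3 rfl
    le_rfl hQ ?_ ?_ ?_ ?_ ?_
  · rcases hmain with h | ⟨n₀, m, h1, h2, -, -, -, h'⟩
    · rw [pow_one] at h; omega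
    · obtain rfl : n₀ = 1 := by omega
      simp at h'
      omega
  · ext s
    rw [hσi, pow_one, hxp, one_mul, inv_one, mul_one]
    rfl
  · rw [pow_one, ← map_pow, ← map_pow, hxp, map_one, map_one]
  · intro s
    show φ (ρ x) * φ (ρ (s : N)) = φ (ρ ((σ s : Q) : N)) * φ (ρ x)
    have h1 := hσi 1 s
    rw [pow_one, pow_one] at h1
    rw [← map_mul, ← map_mul, ← map_mul, ← map_mul, h1, inv_mul_cancel_right]
  · refine ⟨⟨s₀, hs₀⟩, fun h => hmove ?_⟩
    have h1 : ((σ ^ (p ^ (1 - 1))) ⟨s₀, hs₀⟩ : Q) = ⟨s₀, hs₀⟩ := Subtype.ext (hρ (hφ h))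
    have h2 := congrArg Subtype.val h1
    rwa [hσi, Nat.sub_self, pow_zero, pow_one] at h2
  · rw [← map_one φ, ← map_sub, ← map_pow]
    have e : (ρ x - 1) ^ 3 = 0 := hcube
    rw [e, map_zero]

end CfsgLib.OTensorSq17
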