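import Cfsg.Agent.OTensorSq17.Radical

/-!
A root map gives enough root groups, with square spinor norms only.
-/

set_option autoImplicit false
set_option linter.unusedSectionVars false
set_option linter.unusedSimpArgs false
set_option linter.unusedVariables false

namespace CfsgLib.OTensorSq17

open Module CfsgLib.SpO90 CfsgLib.OTensor90

variable {F A B V : Type*} [Field F] [Finite F] [AddCommGroup A] [Module F A] [AddCommGroup B]
  [Module F B] [AddCommGroup V] [Module F V] [FiniteDimensional F A] [FiniteDimensional F B]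
  [FiniteDimensional F V]

/-- Every element of a finite field of odd order is a sum of two squares. -/
lemma exists_two_squares (h2 : (2 : F) ≠ 0) (k : F) : ∃ u v : F, k = u ^ 2 + v ^ 2 := by
  classical
  have := Fintype.ofFinite F
  have hodd : Fintype.card F % 2 = 1 := by
    refine FiniteField.odd_card_of_char_ne_two fun h => h2 ?_
    have := CharP.cast_eq_zero_iff F (ringChar F) 2
    rw [h] at this
    exact this.2 dvd_rfl
  obtain ⟨u, v, huv⟩ := FiniteField.exists_root_sum_quadratic (R := F)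
    (f := Polynomial.X ^ 2) (g := Polynomial.X ^ 2 - Polynomial.C k) (Polynomial.degree_X_pow 2)
    (Polynomial.degree_X_pow_sub_C two_pos k) hodd
  exact ⟨u, v, by simp at huv; linear_combination -huv⟩

namespace Sq

variable {S : Setting F A B V} {M : Subgroup (V ≃ₗ[F] V)}


lemma eich_conj (H : Sq S M) {z W : V} (h : InM M (eich S.form z W)) {g : V ≃ₗ[F] V} (hg : g ∈ M) :
    InM M (eich S.form (g z) (g W)) :=
  h.conj hg fun X => by simp only [eich_apply, H.iso g hg, map_add, map_sub, map_smul]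

lemma root_eq_eich (H : Sq S M) {e e' : A} (hf : Frame S.al e e') (a b : B) :
    LinearMap.id + S.root e (wedge S.be a b) = eich S.form (S.tp e a) (S.tp e b) := LinearMap.ext fun X => by
  simp only [LinearMap.add_apply, LinearMap.id_apply, Setting.root_apply, wedge_apply, eich_apply, map_sub, map_smul,
    S.form_tp, hf.left, zero_mul, zero_div, zero_smul, sub_zero, S.form_symm _ X, ← S.be_pi, S.be_symm _ (S.pi e X)]
  abel_nf

/-- A root map yields all root maps of the member. -/
theorem wedge_mem (H : Sq S M) {e e' : A} (hf : Frame S.al e e') {τ₀ : B →ₗ[F] B}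
    (hτ₀ : InM M (LinearMap.id + S.root e τ₀)) (hne : ∃ X, S.root e τ₀ X ≠ 0) (a b : B) :
    InM M (eich S.form (S.tp e a) (S.tp e b)) := by
  classical
  have hpe : ∀ y, S.pi e (S.tp e y) = 0 := fun y => by simp [hf.left]
  let C : Set (B →ₗ[F] B) := {τ | InM M (LinearMap.id + S.root e τ)}
  have hadd : ∀ {τ σ}, τ ∈ C → σ ∈ C → τ + σ ∈ C := fun {τ σ} h h' => by
    have h1 := InM.comp h h'
    have h2 : (LinearMap.id + S.root e τ) ∘ₗ (LinearMap.id + S.root e σ) = LinearMap.id + S.root e (τ + σ) :=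
      LinearMap.ext fun X => by simp [hpe]; abel
    rwa [h2] at h1
  have hzero : (0 : B →ₗ[F] B) ∈ C := ⟨1, M.one_mem, fun X => by simp⟩
  have hneg : ∀ {τ}, τ ∈ C → -τ ∈ C := fun {τ} ⟨g, hg, hgX⟩ => ⟨g⁻¹, M.inv_mem hg, fun X => g.injective (by
    rw [show g (g⁻¹ X) = X from g.apply_symm_apply X, hgX]
    simp [hpe])⟩
  have hconj : ∀ {τ σ : B →ₗ[F] B} {t : B →ₗ[F] B}, InM M (S.tmap LinearMap.id t) → τ ∈ C → t ∘ₗ τ = σ ∘ₗ t →
      σ ∈ C := by
    intro τ σ t ht hτ hts
    obtain ⟨g, hg, hge⟩ := ht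
    refine InM.conj hg hτ fun X => ?_
    have h1 : S.tmap LinearMap.id t ∘ₗ S.root e τ = S.root e σ ∘ₗ S.tmap LinearMap.id t := by
      refine S.hom_ext fun v y => ?_
      simp only [LinearMap.comp_apply, Setting.root_apply, S.tmap_tp, S.pi_tp, map_smul, LinearMap.id_apply,
        map_smul, S.tmap_tp]
      rw [← LinearMap.comp_apply (f := t) (g := τ), hts, LinearMap.comp_apply]
    have h2 := LinearMap.congr_fun h1 X
    simp only [LinearMap.comp_apply] at h2
    simp only [LinearMap.add_apply, LinearMap.id_apply, hge, map_add, h2]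
  have hskew : ∀ {τ}, τ ∈ C → ∀ u v, S.be (τ u) v = -S.be u (τ v) := fun {τ} ⟨g, hg, hgX⟩ u v => by
    have h1 := H.iso g hg (S.tp e' u) (S.tp e' v)
    rw [hgX, hgX] at h1
    simp [S.form_tp, hf.left, hf.right, hf.pair, hf.pair' S.sym_al] at h1
    linear_combination h1
  obtain ⟨w, hw0, hwne⟩ : ∃ w, S.be w w = 0 ∧ w ≠ 0 := by
    obtain ⟨w, -, h1, h2⟩ := S.sym_be.exists_iso_in (B := ⊤)
      (fun x _ hx => S.be_nd x fun y => hx y trivial) (by rw [finrank_top]; exact H.dB)
    exact ⟨w, h2, h1⟩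
  obtain ⟨w', hw⟩ := exists_frame S.sym_be H.wB hw0 hwne
  -- a root map fixed by the Eichler maps of `w`
  obtain ⟨p, hp⟩ := CharP.exists F
  have := Fintype.ofFinite F
  have : Fact p.Prime := ⟨CharP.char_is_prime F p⟩
  have : Finite B := Module.finite_of_finite F
  have : Fintype (mid S.be w w') := Fintype.ofFinite _
  have hmy : ∀ y : mid S.be w w', S.be w (y : B) = 0 := fun y => (mem_mid.1 y.2).1
  let K : mid S.be w w' → Module.End F (B →ₗ[F] B) := fun y =>
    { toFun := fun D => eich S.be w (y : B) ∘ₗ D ∘ₗ eich S.be w (-(y : B))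
      map_add' := fun D D' => LinearMap.ext fun r => by simp
      map_smul' := fun c D => LinearMap.ext fun r => by simp }
  have hK : ∀ y z, K y * K z = K (y + z) := fun y z => LinearMap.ext fun D => by
    simp only [Module.End.mul_apply, K, LinearMap.coe_mk, AddHom.coe_mk, Submodule.coe_add, neg_add_rev,
      ← eich_comp S.sym_be hw.left (hmy y) (hmy z), ← eich_comp S.sym_be hw.left
        (show S.be w (-(z : B)) = 0 by simp [hmy z]) (show S.be w (-(y : B)) = 0 by simp [hmy y])]
    simp only [LinearMap.comp_assoc]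
  have hK0 : K 0 = 1 := LinearMap.ext fun D => LinearMap.ext fun r => by simp [K, eich_zero]
  have hKn : ∀ y (n : ℕ), K y ^ n = K (n • y) := fun y n => by
    induction n with
    | zero => rw [pow_zero, zero_smul, hK0]
    | succ n ih => rw [pow_succ, ih, hK, succ_nsmul]
  obtain ⟨τ, hτ, hτ0, hfix⟩ := exists_all_mem (fun y => K y - 1) (n := p)
    (fun y => sub_one_pow_char (p := p) (by
      rw [hKn, show p • y = 0 by rw [← Nat.cast_smul_eq_nsmul F, CharP.cast_eq_zero, zero_smul], hK0]))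
    (fun y z => by
      rw [sub_mul, mul_sub, mul_sub, sub_mul, mul_sub, mul_sub, hK, hK, add_comm y z, one_mul, mul_one, one_mul,
        one_mul, mul_one]
      abel)
    (T := {0}) (U := C) rfl (fun y D hD => by rw [Set.mem_singleton_iff.1 hD, map_zero]; rfl)
    (fun y D hD => by
      rw [LinearMap.sub_apply, Module.End.one_apply, sub_eq_add_neg]
      refine hadd (hconj (H.eichB_mem hw.left (hmy y)) hD ?_) (hneg hD)
      simp only [K, LinearMap.coe_mk, AddHom.coe_mk, LinearMap.comp_assoc,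
        eich_comp S.sym_be hw.left (show S.be w (-(y : B)) = 0 by simp [hmy y]) (hmy y), neg_add_cancel, eich_zero,
        LinearMap.comp_id])
    Finset.univ (x := τ₀) hτ₀ (fun h0 => by
      obtain ⟨X, hX⟩ := hne
      rw [Set.mem_singleton_iff.1 h0] at hX
      simp at hX)
  obtain ⟨x₀, hx₀, hτx⟩ := fixed_skew S.sym_be hw H.dB (hskew hτ) fun y hy x => by
    have h1 := Set.mem_singleton_iff.1 (hfix ⟨y, hy⟩ (Finset.mem_univ _))
    rw [LinearMap.sub_apply, Module.End.one_apply, sub_eq_zero] at h1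
    conv_rhs => rw [← h1]
    simp only [K, LinearMap.coe_mk, AddHom.coe_mk, LinearMap.comp_apply]
    rw [← LinearMap.comp_apply (f := eich S.be w (-y)),
      eich_comp S.sym_be hw.left (by simp [(mem_mid.1 hy).1]) (mem_mid.1 hy).1, neg_add_cancel, eich_zero]
    rfl
  have hτw : τ = wedge S.be x₀ w := LinearMap.ext hτx
  have hx₀0 : x₀ ≠ 0 := fun h => hτ0 (by rw [hτw, h]; simp [wedge])
  have hx00 : S.be x₀ x₀ ≠ 0 := fun h => hx₀0 (hw.aniso' hx₀ h)
  -- the subspace of root coefficients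
  let P : Submodule F (B →ₗ[F] B) :=
    { carrier := {σ | ∀ k : F, k • σ ∈ C}
      add_mem' := fun {σ σ'} h h' k => by rw [smul_add]; exact hadd (h k) (h' k)
      zero_mem' := fun k => by rw [smul_zero]; exact hzero
      smul_mem' := fun c σ h k => by rw [smul_smul]; exact h _ }
  have hPconj : ∀ {a b : B} {t : B →ₗ[F] B}, InM M (S.tmap LinearMap.id t) ∧ IsSO S.be t → wedge S.be a b ∈ P →
      wedge S.be (t a) (t b) ∈ P := by
    intro a b t ht h k
    refine hconj ht.1 (h k) (LinearMap.ext fun x => ?_)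
    simp [wedge_apply, ht.2.1 _ _, smul_sub]
  have base : wedge S.be x₀ w ∈ P := fun k => by
    rw [← hτw]
    suffices hsq : ∀ k : F, (k ^ 2) • τ ∈ C by
      obtain ⟨u, v, rfl⟩ := exists_two_squares S.two k
      rw [add_smul]
      exact hadd (hsq u) (hsq v)
    intro k
    rcases eq_or_ne k 0 with rfl | hk
    · rw [zero_pow two_ne_zero, zero_smul]; exact hzero
    obtain ⟨b, hbM, hb, hbw, -, hbm⟩ := H.scaleB_mem hw hk
    refine hconj hbM hτ (LinearMap.ext fun x => ?_)
    have h1 := hb.1 w x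
    have h2 := hb.1 x₀ x
    rw [hbw, map_smul, LinearMap.smul_apply, smul_eq_mul] at h1
    rw [hbm x₀ hx₀] at h2
    simp only [LinearMap.comp_apply, LinearMap.smul_apply, hτw, wedge_apply, map_sub, map_smul, hbm x₀ hx₀, hbw,
      smul_sub, smul_smul, ← h1, ← h2]
    match_scalars <;> ring
  have hadj : ∀ {y}, y ∈ mid S.be w w' → S.be w y = 0 ∧ S.be w' y = 0 := fun h => mem_mid.1 h
  have hm' : ∀ {y}, y ∈ mid S.be w w' → y ∈ mid S.be w' w := fun h => mem_mid.2 ⟨(hadj h).2, (hadj h).1⟩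
  have hu' : ∀ {y}, y ∈ mid S.be w w' →
      InM M (S.tmap LinearMap.id (eich S.be w' y)) ∧ IsSO S.be (eich S.be w' y) := fun h =>
    ⟨H.eichB_mem hw.right (hadj h).2, eich_isSO S.sym_be hw.right (hadj h).2⟩
  have split1 : ∀ y ∈ mid S.be w w',
      -wedge S.be x₀ y + S.be y x₀ • wedge S.be w' w - (S.be y y / 2) • wedge S.be x₀ w'
        - S.be y x₀ • wedge S.be w' y ∈ P := by
    intro y hy
    have h1 := P.sub_mem (hPconj (hu' hy) base) base
    rw [eich_mid S.sym_be (hw.swap S.sym_be) (hm' hx₀),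
      eich_right S.sym_be (hw.swap S.sym_be) (hm' hy)] at h1
    convert h1 using 1
    refine LinearMap.ext fun x => ?_
    simp only [LinearMap.sub_apply, LinearMap.add_apply, LinearMap.neg_apply, LinearMap.smul_apply, wedge_apply,
      map_add, map_sub, map_smul, smul_eq_mul]
    module
  have h2 := S.two
  have odd : ∀ y ∈ mid S.be w w', -wedge S.be x₀ y + S.be y x₀ • wedge S.be w' w ∈ P := by
    intro y hy
    have h1 := P.smul_mem (2 : F)⁻¹ (P.sub_mem (split1 y hy) (split1 (-y) (Submodule.neg_mem _ hy)))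
    convert h1 using 1
    refine LinearMap.ext fun x => ?_
    simp only [LinearMap.sub_apply, LinearMap.add_apply, LinearMap.neg_apply, LinearMap.smul_apply, wedge_apply,
      map_neg, neg_neg]
    match_scalars <;> field_simp <;> ring
  have ww' : wedge S.be w' w ∈ P := by
    have h1 := P.smul_mem (S.be x₀ x₀)⁻¹ (odd x₀ hx₀)
    convert h1 using 1
    refine LinearMap.ext fun x => ?_
    simp [wedge_apply, smul_smul, inv_mul_cancel₀ hx00]
  have ww : wedge S.be w w' ∈ P := by
    convert P.neg_mem ww' using 1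
    exact LinearMap.ext fun x => by simp [wedge_apply]
  have wy : ∀ {u u' : B}, Frame S.be u u' → wedge S.be u u' ∈ P → ∀ y ∈ mid S.be u u', wedge S.be u y ∈ P := by
    intro u u' hu h y hy
    have h1 := P.sub_mem h (hPconj ⟨H.eichB_mem hu.left (mem_mid.1 hy).1, eich_isSO S.sym_be hu.left (mem_mid.1 hy).1⟩ h)
    rw [eich_left S.sym_be hu hy, eich_right S.sym_be hu hy] at h1
    convert h1 using 1
    refine LinearMap.ext fun x => ?_
    simp only [LinearMap.sub_apply, wedge_apply, map_sub, map_smul, LinearMap.smul_apply, smul_eq_mul]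
    module
  have hwy : ∀ y ∈ mid S.be w w', wedge S.be w y ∈ P := wy hw ww
  have hw'y : ∀ y ∈ mid S.be w w', wedge S.be w' y ∈ P := fun y hy => wy (hw.swap S.sym_be) ww' y (hm' hy)
  have yz : ∀ y ∈ mid S.be w w', ∀ z ∈ mid S.be w w', wedge S.be y z ∈ P := by
    intro y hy z hz
    have h1 := P.add_mem (P.add_mem (P.add_mem (P.sub_mem (hwy z hz) (hPconj (hu' hy) (hwy z hz)))
      (P.smul_mem (S.be y z) ww)) (P.smul_mem (-(S.be y y / 2)) (hw'y z hz))) (P.smul_mem (S.be y z) (hw'y y hy))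
    rw [eich_right S.sym_be (hw.swap S.sym_be) (hm' hy), eich_mid S.sym_be (hw.swap S.sym_be) (hm' hz)] at h1
    convert h1 using 1
    refine LinearMap.ext fun x => ?_
    simp only [LinearMap.sub_apply, LinearMap.add_apply, LinearMap.smul_apply, wedge_apply, map_add, map_sub, map_smul,
      LinearMap.neg_apply, smul_eq_mul]
    module
  have wsymm : ∀ {u v : B}, wedge S.be u v ∈ P → wedge S.be v u ∈ P := fun {u v} h => by
    convert P.neg_mem h using 1
    exact LinearMap.ext fun x => by simp [wedge_apply]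
  have wself : ∀ u : B, wedge S.be u u ∈ P := fun u => by
    convert P.zero_mem using 1
    exact LinearMap.ext fun x => by simp [wedge_apply]
  have step : ∀ u, wedge S.be u w ∈ P → wedge S.be u w' ∈ P → (∀ y ∈ mid S.be w w', wedge S.be u y ∈ P) →
      ∀ v, wedge S.be u v ∈ P := by
    intro u h1 h2 h3 v
    have := P.add_mem (P.add_mem (P.smul_mem (S.be w' v) h1) (P.smul_mem (S.be w v) h2))
      (h3 _ (hw.decomp S.sym_be v))
    convert this using 1
    refine LinearMap.ext fun x => ?_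
    simp only [LinearMap.add_apply, LinearMap.smul_apply, wedge_apply, map_sub, LinearMap.sub_apply, map_smul,
      LinearMap.smul_apply, smul_eq_mul]
    module
  have hall : ∀ u v, wedge S.be u v ∈ P := fun u v => wsymm (step v
    (wsymm (step w (wself w) ww hwy v)) (wsymm (step w' ww' (wself w') hw'y v))
    (fun y hy => wsymm (step y (wsymm (hwy y hy)) (wsymm (hw'y y hy)) (fun z hz => yz y hy z hz) v)) u)
  have h3 := hall a b 1
  rw [one_smul] at h3
  rwa [← H.root_eq_eich hf]

/-- The member of a full frame consists of root vectors. -/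
theorem root_vector (H : Sq S M) {e e' : A} (hf : Frame S.al e e')
    (hfe : ∀ a b : B, InM M (eich S.form (S.tp e a) (S.tp e b)))
    (hfe' : ∀ a b : B, InM M (eich S.form (S.tp e' a) (S.tp e' b))) (u : B) :
    ∀ W, S.form (S.tp e u) W = 0 → InM M (eich S.form (S.tp e u) W) := by
  classical
  have hz : ∀ {d : A}, S.al d d = 0 → ∀ a : B, S.form (S.tp d a) (S.tp d a) = 0 := fun h a => by
    rw [S.form_tp, h, zero_mul]
  let G : V → Submodule F V := fun z =>
    { carrier := {W | S.form z z = 0 → S.form z W = 0 ∧ ∀ k : F, InM M (eich S.form z (k • W))}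
      add_mem' := fun {W W'} h h' hz => by
        obtain ⟨h1, h2⟩ := h hz
        obtain ⟨h1', h2'⟩ := h' hz
        refine ⟨by rw [map_add, h1, h1', add_zero], fun k => ?_⟩
        rw [smul_add, ← eich_comp S.sym_form hz (by simp [h1]) (by simp [h1'])]
        exact (h2 k).comp (h2' k)
      zero_mem' := fun _ => ⟨map_zero _, fun k => by rw [smul_zero, eich_zero]; exact ⟨1, M.one_mem, fun X => rfl⟩⟩
      smul_mem' := fun c W h hz => ⟨by rw [map_smul, (h hz).1, smul_zero], fun k => by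
        rw [smul_smul]; exact (h hz).2 _⟩ }
  have disp : ∀ {z W : V} {h : V ≃ₗ[F] V}, h ∈ M → h z = z → W ∈ G z → h W - W ∈ G z := by
    intro z W h hh hhz hW
    refine Submodule.sub_mem _ ?_ hW
    intro hz
    obtain ⟨h1, h2⟩ := hW hz
    refine ⟨by rw [← hhz, H.iso h hh, h1], fun k => ?_⟩
    have h3 := H.eich_conj (h2 k) hh
    rwa [hhz, map_smul] at h3
  have stepA : ∀ {d d' : A}, Frame S.al d d' → (∀ a b : B, InM M (eich S.form (S.tp d a) (S.tp d b))) →
      ∀ a v, S.tp d v ∈ G (S.tp d a) := fun {d d'} hd h a v _ =>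
    ⟨by rw [S.form_tp, hd.left, zero_mul], fun k => by rw [← map_smul]; exact h a _⟩
  have stepC : ∀ {d d' : A}, Frame S.al d d' → (∀ a b : B, InM M (eich S.form (S.tp d a) (S.tp d b))) →
      (∀ a b : B, InM M (eich S.form (S.tp d' a) (S.tp d' b))) → ∀ a c, S.be a c = 0 →
      S.tp d' c ∈ G (S.tp d a) ∧ ∀ y ∈ mid S.al d d', S.tp y c ∈ G (S.tp d a) := by
    intro d d' hd h h' a c hac
    have e1 : S.tp d' c ∈ G (S.tp d a) := by
      rcases eq_or_ne c 0 with rfl | hc
      · rw [map_zero]; exact Submodule.zero_mem _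
      obtain ⟨c', hc', hc'c⟩ : ∃ c' ∈ perp S.be (F ∙ a), c' ∉ F ∙ c := by
        by_contra! hcon
        have h1 := Submodule.finrank_mono (fun x hx => hcon x hx : perp S.be (F ∙ a) ≤ F ∙ c)
        have h2 := S.sym_be.finrank_perp (F ∙ a)
        have h3 : finrank F (F ∙ a) ≤ 1 := (finrank_span_le_card ({a} : Set B)).trans (by simp)
        have h4 : finrank F (F ∙ c) ≤ 1 := (finrank_span_le_card ({c} : Set B)).trans (by simp)
        have := H.dB
        omega
      obtain ⟨v, hv, hv'⟩ : ∃ v, S.be c v = 0 ∧ S.be c' v ≠ 0 := by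
        by_contra! hcon
        refine hc'c ?_
        rw [← S.sym_be.perp_perp (F ∙ c)]
        intro x hx
        show S.be x c' = 0
        rw [S.be_symm]
        exact hcon x (mem_perp_single.1 hx)
      have hc'a := mem_perp_single.1 hc'
      obtain ⟨g, hg, hge⟩ := h' c ((S.be c' v)⁻¹ • c')
      have hgz : g (S.tp d a) = S.tp d a := by
        rw [hge]
        simp [eich_apply, S.form_tp, S.be_symm c a, hac, S.be_symm c' a, hc'a]
      have := disp hg hgz (stepA hd h a v)
      rw [hge] at this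
      simpa [eich_apply, S.form_tp, hd.right, hd.pair' S.sym_al, hv, inv_mul_cancel₀ hv'] using this
    refine ⟨e1, fun y hy => ?_⟩
    obtain ⟨g, hg, hge⟩ := H.eichA_mem hd.left (mem_mid.1 hy).1
    have hgz : g (S.tp d a) = S.tp d a := by
      rw [hge, S.tmap_tp, eich_left S.sym_al hd hy]; rfl
    have h1 := disp hg hgz e1
    rw [hge, S.tmap_tp, eich_right S.sym_al hd hy] at h1
    have h2 := Submodule.add_mem _ h1 (Submodule.smul_mem _ (S.al y y / 2) (stepA hd h a c))
    have h3 := Submodule.neg_mem _ h2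
    convert h3 using 1
    simp [map_sub, map_smul]
    module
  have hmid : ∀ y ∈ mid S.al e e', ∀ b, S.tp y b ∈ G (S.tp e u) := by
    intro y hy b
    obtain ⟨hy1, hy2⟩ := mem_mid.1 hy
    obtain ⟨a, ⟨hau, hab⟩, ha0⟩ : ∃ a ∈ perp S.be (F ∙ u) ⊓ perp S.be (F ∙ b), a ≠ 0 := by
      refine Submodule.exists_mem_ne_zero_of_ne_bot fun h0 => ?_
      have h1 := S.sym_be.finrank_inf_perp (perp S.be (F ∙ u)) b
      have h2 := S.sym_be.finrank_perp (F ∙ u)
      have h3 : finrank F (F ∙ u) ≤ 1 := (finrank_span_le_card ({u} : Set B)).trans (by simp)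
      rw [h0, finrank_bot] at h1
      have := H.dB
      omega
    obtain ⟨v, hv⟩ : ∃ v, S.be a v = 1 := by
      obtain ⟨v, hv⟩ : ∃ v, S.be a v ≠ 0 := by
        by_contra! h
        exact ha0 (S.be_nd a h)
      exact ⟨(S.be a v)⁻¹ • v, by simp [inv_mul_cancel₀ hv]⟩
    have hau' := mem_perp_single.1 hau
    have hab' := mem_perp_single.1 hab
    have hyG := (stepC (hf.swap S.sym_al) hfe' hfe a b (by rw [S.be_symm]; exact hab')).2 y
      (mem_mid.2 ⟨hy2, hy1⟩) (hz hf.right a)
    obtain ⟨g, hg, hge⟩ := hyG.2 1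
    rw [one_smul] at hge
    have hgz : g (S.tp e u) = S.tp e u := by
      rw [hge]
      simp [eich_apply, S.form_tp, S.al_symm y e, hy1, S.be_symm a u, hau']
    have h1 := disp hg hgz (stepA hf hfe u v)
    rw [hge] at h1
    have ha' := (stepC hf hfe hfe' u a hau').1
    have h2 := Submodule.add_mem _ h1 (Submodule.smul_mem _ (S.form (S.tp y b) (S.tp y b) / 2) ha')
    have h3 := Submodule.neg_mem _ h2
    convert h3 using 1
    simp [eich_apply, S.form_tp, hf.pair' S.sym_al, hv, S.al_symm y e, hy1]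
    module
  intro W hW
  have hp : S.p0 e e' W ∈ G (S.tp e u) := by
    have h : (G (S.tp e u)).mkQ ∘ₗ S.p0 e e' = 0 := by
      refine S.hom_ext_frame hf (fun w => ?_) (fun w => ?_) fun a ha w => ?_
      · simp [S.p0_tp_left hf]
      · simp [S.p0_tp_right hf]
      · simp [S.p0_tp_mid hf ha, hmid a ha w]
    simpa using LinearMap.congr_fun h W
  have hW' : S.be u (S.pi e W) = 0 := by rw [S.be_symm, S.be_pi, S.form_symm]; exact hW
  have hall : W ∈ G (S.tp e u) := by
    rw [S.split hf W]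
    exact Submodule.add_mem _ (Submodule.add_mem _ hp (stepA hf hfe u _)) (stepC hf hfe hfe' u _ hW').1
  have h4 := (hall (hz hf.left u)).2 1
  rwa [one_smul] at h4

lemma transport (H : Sq S M) {d d' : A} {s : A →ₗ[F] A} (hs : InM M (S.tmap s LinearMap.id)) (hsd : s d = d') {u : B}
    (h : ∀ W, S.form (S.tp d u) W = 0 → InM M (eich S.form (S.tp d u) W)) :
    ∀ W, S.form (S.tp d' u) W = 0 → InM M (eich S.form (S.tp d' u) W) := by
  intro W hW
  obtain ⟨g, hg, hge⟩ := hs
  have hgz : g (S.tp d u) = S.tp d' u := by rw [hge, S.tmap_tp, hsd]; rfl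
  obtain ⟨W', hW'⟩ : ∃ W', g W' = W := ⟨_, g.apply_symm_apply _⟩
  have h1 : S.form (S.tp d u) W' = 0 := by
    rw [← H.iso g hg, hgz, hW', hW]
  have h2 := H.eich_conj (h W' h1) hg
  rwa [hgz, hW'] at h2

/-- A root map gives root groups at enough pure vectors. -/
theorem exists_root_vectors (H : Sq S M) (hno : ¬ NoRoot S M) :
    ∃ R : Set V, (∀ z ∈ R, S.form z z = 0 ∧ ∀ W, S.form z W = 0 → InM M (eich S.form z W)) ∧
      ∀ X, X ≠ 0 → ∃ z ∈ R, ∃ v ∈ R, S.form z v ≠ 0 ∧ S.form z X ≠ 0 := by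
  classical
  simp only [NoRoot, not_forall] at hno
  obtain ⟨e, e', hf, τ, hτ, hne⟩ := hno
  have hfe : ∀ a b : B, InM M (eich S.form (S.tp e a) (S.tp e b)) := H.wedge_mem hf hτ hne
  have hfe' : ∀ a b : B, InM M (eich S.form (S.tp e' a) (S.tp e' b)) := by
    intro a b
    obtain ⟨s, ⟨g, hg, hge⟩, -, c, hc, hse, -⟩ := H.swapA_mem hf
    have h := H.eich_conj (hfe (c⁻¹ • a) (c⁻¹ • b)) hg
    simpa [hge, hse, smul_smul, mul_inv_cancel₀ hc, inv_mul_cancel₀ hc] using h
  have he := fun u => H.root_vector hf hfe hfe' u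
  have he' := fun u => H.root_vector (hf.swap S.sym_al) hfe' hfe u
  refine ⟨{z | ∃ d u, z = S.tp d u ∧ (d = e ∨ ∃ y ∈ mid S.al e e', d = eich S.al e y e')}, ?_, fun X hX => ?_⟩
  · rintro z ⟨d, u, rfl, rfl | ⟨y, hy, rfl⟩⟩
    · exact ⟨by simp [S.form_tp, hf.left], he u⟩
    · exact ⟨by simp [S.form_tp, eich_isIso S.sym_al hf.left (mem_mid.1 hy).1 e' e', hf.right],
        H.transport (H.eichA_mem hf.left (mem_mid.1 hy).1) rfl (he' u)⟩
  have hex : ∀ b : B, b ≠ 0 → ∃ a, S.be a b ≠ 0 := fun b hb => by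
    by_contra! h
    exact hb (S.be_nd b fun a => by rw [S.be_symm]; exact h a)
  have h0 : e' = eich S.al e 0 e' := by simp [eich_zero]
  by_cases h1 : S.pi e X = 0
  · by_cases h2 : S.pi e' X = 0
    · obtain ⟨y, hy, hyX⟩ : ∃ y ∈ mid S.al e e', S.pi y X ≠ 0 := by
        by_contra! h
        exact hX (S.pi_flip_ext hf (by simp [h1]) (by simp [h2]) fun a ha => by simp [h a ha])
      obtain ⟨a, ha⟩ := hex _ hyX
      obtain ⟨v, hv⟩ := hex a (fun h => ha (by simp [h]))
      refine ⟨_, ⟨_, a, rfl, Or.inr ⟨y, hy, rfl⟩⟩, _, ⟨e, v, rfl, Or.inl rfl⟩, ?_, ?_⟩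
      · rw [S.form_tp, S.al_symm, eich_mem_mid_right S.sym_al hf hy, one_mul, S.be_symm]; exact hv
      · rw [S.form_symm, ← S.be_pi, eich_right S.sym_al hf hy]
        simp [h1, h2, S.be_symm _ a, ha]
    · obtain ⟨a, ha⟩ := hex _ h2
      obtain ⟨v, hv⟩ := hex a (fun h => ha (by simp [h]))
      refine ⟨_, ⟨e', a, rfl, Or.inr ⟨0, Submodule.zero_mem _, h0⟩⟩, _, ⟨e, v, rfl, Or.inl rfl⟩, ?_, ?_⟩
      · rw [S.form_tp, hf.pair' S.sym_al, one_mul, S.be_symm]; exact hv
      · rw [S.form_symm, ← S.be_pi, S.be_symm]; exact ha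
  · obtain ⟨a, ha⟩ := hex _ h1
    obtain ⟨v, hv⟩ := hex a (fun h => ha (by simp [h]))
    refine ⟨_, ⟨e, a, rfl, Or.inl rfl⟩, _, ⟨e', v, rfl, Or.inr ⟨0, Submodule.zero_mem _, h0⟩⟩, ?_, ?_⟩
    · rw [S.form_tp, hf.pair, one_mul, S.be_symm]; exact hv
    · rw [S.form_symm, ← S.be_pi, S.be_symm]; exact ha

/-- Without root maps of the first factor there are none of the second. -/
theorem noRoot_swap (H : Sq S M) (hno : NoRoot S M) : NoRoot S.swap M := by
  intro w w' hw τ hτ X
  by_contra hne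
  have hww : ∀ a b : A, InM M (eich S.form (S.tp a w) (S.tp b w)) := H.swap.wedge_mem hw hτ ⟨X, hne⟩
  have hw'w' : ∀ a b : A, InM M (eich S.form (S.tp a w') (S.tp b w')) := by
    intro a b
    obtain ⟨t, ⟨g, hg, hge⟩, -, c, hc, htw, -⟩ := H.swapB_mem hw
    have h := H.eich_conj (hww (c⁻¹ • a) (c⁻¹ • b)) hg
    simpa [hge, htw, smul_smul, mul_inv_cancel₀ hc, inv_mul_cancel₀ hc] using h
  obtain ⟨e, -, he0, hee⟩ := S.sym_al.exists_iso_in (B := ⊤)
    (fun x _ hx => S.al_nd x fun y => hx y trivial) (by rw [finrank_top]; exact H.dA)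
  obtain ⟨e', hf⟩ := exists_frame S.sym_al H.wA hee he0
  obtain ⟨y, hy, hy0⟩ := hf.exists_mid_ne S.sym_al H.dA
  obtain ⟨hy1, hy2⟩ := mem_mid.1 hy
  have hyy : S.al y y ≠ 0 := fun h => hy0 (hf.aniso' hy h)
  obtain ⟨g, hg, hge⟩ := hww e y
  have hww0 : S.be w w = 0 := hw.left
  have hw1 : S.be w w' = 1 := hw.pair
  have hw'0 : S.be w' w' = 0 := hw.right
  have hw2 : S.be w' w = 1 := by rw [S.be_symm]; exact hw1
  have h1 := H.eich_conj (hw'w' e y) hg
  have e1 : g (S.tp e w') = S.tp e w' := by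
    rw [hge]; simp [eich_apply, S.form_tp, hf.left, S.al_symm y e, hy1]
  have e2 : g (S.tp y w') = S.tp y w' + S.al y y • S.tp e w := by
    rw [hge]; simp [eich_apply, S.form_tp, hy1, hw1]
  rw [e1, e2] at h1
  have h2 := h1.comp (hw'w' e (-y))
  have hz0 : S.form (S.tp e w') (S.tp e w') = 0 := by simp [S.form_tp, hf.left]
  have hz1 : S.form (S.tp e w') (S.tp y w' + S.al y y • S.tp e w) = 0 := by simp [S.form_tp, hy1, hf.left]
  have hz2 : S.form (S.tp e w') (S.tp (-y) w') = 0 := by simp [S.form_tp, hy1]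
  rw [eich_comp S.sym_form hz0 hz1 hz2, show S.tp y w' + S.al y y • S.tp e w + S.tp (-y) w' =
    S.tp e (S.al y y • w) by simp, ← H.root_eq_eich hf] at h2
  have h3 := congrArg (S.form (S.tp e' w)) (hno e e' hf _ h2 (S.tp e' w'))
  simp [S.form_tp, wedge_apply, hf.pair' S.sym_al, hw1, hww0, hw'0, hw2] at h3
  exact hyy h3

end Sq

end CfsgLib.OTensorSq17
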