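import Cfsg.Agent.OTensorSq17.Member
import Cfsg.Agent.OTensorSq17.Root

/-!
Tensor and anti-tensor maps of a group containing both groups of square spinor norm.
-/

set_option autoImplicit false
set_option linter.unusedSectionVars false
set_option linter.unusedSimpArgs false
set_option linter.unusedVariables false

namespace CfsgLib.OTensorSq17

open Module CfsgLib.SpO90 CfsgLib.OTensor90

section three

variable {F : Type*} [Field F] [Finite F] {W : Type*} [AddCommGroup W] [Module F W] [FiniteDimensional F W]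
variable {β : LinearMap.BilinForm F W}

lemma det_iso (hs : Sym β) {o : W →ₗ[F] W} (ho : IsIso β o) :
    LinearMap.det o = 1 ∨ LinearMap.det o = -1 := by
  classical
  set bs := Module.finBasis F W
  set G := LinearMap.BilinForm.toMatrix bs β
  set O := LinearMap.toMatrix bs bs o
  have hG : G.det ≠ 0 := (LinearMap.BilinForm.nondegenerate_iff_det_ne_zero bs).1 hs.nondegenerate
  have hiso : O.transpose * G * O = G := by
    rw [← LinearMap.BilinForm.toMatrix_comp bs bs β o o]
    ext i j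
    simp [G, LinearMap.BilinForm.toMatrix_apply, ho _ _]
  have e2 := congrArg Matrix.det hiso
  rw [Matrix.det_mul, Matrix.det_mul, Matrix.det_transpose] at e2
  have hO : O.det = LinearMap.det o := LinearMap.det_toMatrix bs o
  rw [hO] at e2
  exact mul_self_eq_one_iff.1 (mul_right_cancel₀ hG (by linear_combination e2))

lemma isSO_neg (h3 : finrank F W = 3) {o : W →ₗ[F] W} (ho : IsIso β o) (hd : LinearMap.det o = -1) :
    IsSO β (-o) := by
  refine ⟨fun x y => by simp [ho _ _], ?_⟩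
  rw [show -o = (-1 : F) • o by simp, LinearMap.det_smul, h3, hd]
  norm_num

lemma isSO_one : IsSO β (LinearMap.id : W →ₗ[F] W) := ⟨fun _ _ => rfl, LinearMap.det_id⟩

lemma isSO_pow {o : W →ₗ[F] W} (ho : IsSO β o) (n : ℕ) : IsSO β (((o : Module.End F W) ^ n) : W →ₗ[F] W) := by
  induction n with
  | zero => exact isSO_one
  | succ n ih => rw [pow_succ]; exact ih.comp ho

/-- An involution of determinant one is trivial or minus a reflection. -/
lemma isSO_invol (hs : Sym β) (h3 : finrank F W = 3) {s : W →ₗ[F] W} (hso : IsSO β s) (hss : ∀ a, s (s a) = a) :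
    s = LinearMap.id ∨ ∃ v, β v v ≠ 0 ∧ s = rot β v := by
  by_cases hne : s = LinearMap.id
  · exact Or.inl hne
  obtain ⟨v, hv0, hv, hfix⟩ := exists_fix_line hs h3 hso hne
  have hline : ∀ x, ∃ d : F, x + s x = d • v := fun x => hfix _ (by rw [map_add, hss, add_comm])
  have hvx : ∀ x, β v (s x) = β v x := fun x => by
    conv_lhs => rw [← hv]
    exact hso.1 v x
  have hvv : β v v ≠ 0 := by
    intro h0
    refine hv0 (hs.nondeg v fun x => ?_)
    obtain ⟨d, hd⟩ := hline x
    have := congrArg (β v) hd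
    rw [map_add, hvx, map_smul, h0, smul_zero, ← two_mul] at this
    exact (mul_eq_zero.1 this).resolve_left hs.two_ne
  refine Or.inr ⟨v, hvv, LinearMap.ext fun x => ?_⟩
  obtain ⟨d, hd⟩ := hline x
  have h1 := congrArg (β v) hd
  rw [map_add, hvx, map_smul, smul_eq_mul] at h1
  have hd' : d = 2 / β v v * β v x := by field_simp; linear_combination -h1
  rw [rot_apply, ← hd', ← hd]
  abel

lemma rot_ne_id (hs : Sym β) (h3 : finrank F W = 3) {v : W} (hv : β v v ≠ 0) : rot β v ≠ LinearMap.id := by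
  intro h
  have hv0 : v ≠ 0 := fun h0 => hv (by simp [h0])
  obtain ⟨z, hz, hz0⟩ := Submodule.exists_mem_ne_zero_of_ne_bot (p := perp β (F ∙ v)) (fun h0 => by
    have := hs.finrank_perp (F ∙ v)
    rw [h0, finrank_bot, finrank_span_singleton hv0] at this
    omega)
  have h3' := LinearMap.congr_fun h z
  rw [rot_perp (mem_perp_single.1 hz), LinearMap.id_apply] at h3'
  have h4 : (2 : F) • z = 0 := by rw [two_smul]; nth_rw 1 [← h3']; exact neg_add_cancel z
  exact hz0 ((smul_eq_zero.1 h4).resolve_left hs.two_ne)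

section charp

variable {p : ℕ} [hp : Fact p.Prime] [CharP F p]

/-- An isometry of order `p` fixing a non-singular vector is trivial. -/
lemma fix_aniso3 (hs : Sym β) (h3 : finrank F W = 3) {s : W →ₗ[F] W} (hiso : IsIso β s)
    (hp' : (s : Module.End F W) ^ p = 1) {v : W} (hv : β v v ≠ 0) (hsv : s v = v) : s = LinearMap.id := by
  have hn := hs.nd_perp (hs.nd_single hv)
  have hv0 : v ≠ 0 := fun h => hv (by simp [h])
  have hdim : finrank F (perp β (F ∙ v)) = 2 := by
    have := hs.finrank_perp (F ∙ v)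
    rw [finrank_span_singleton hv0, h3] at this
    omega
  have h1 := plane_fix (p := p) hs hn hdim hiso (fun z hz => mem_perp_single.2 (by
    rw [← hsv, hiso, mem_perp_single.1 hz])) (fun z _ => by rw [hp']; rfl)
  refine LinearMap.ext fun x => ?_
  have h2 : x - (β v x / β v v) • v ∈ perp β (F ∙ v) := mem_perp_single.2 (by simp [hv])
  have h3 := h1 _ h2
  rw [map_sub, map_smul, hsv, sub_left_inj] at h3
  exact h3

lemma rot_commute_fix3 (hs : Sym β) (h3 : finrank F W = 3) {s : W →ₗ[F] W} {v : W} (hv : β v v ≠ 0)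
    (hiso : IsIso β s) (hp' : (s : Module.End F W) ^ p = 1) (hcom : s ∘ₗ rot β v = rot β v ∘ₗ s) :
    s = LinearMap.id := by
  obtain ⟨c, hc⟩ := rot_fixed hs hv (x := s v) (by
    rw [← LinearMap.comp_apply, ← hcom, LinearMap.comp_apply, rot_self hs hv])
  have hn : ∀ n : ℕ, ((s : Module.End F W) ^ n) v = c ^ n • v := fun n => by
    induction n with
    | zero => simp
    | succ n ih => rw [pow_succ, Module.End.mul_apply, hc, map_smul, ih, smul_smul, pow_succ, mul_comm]
  have h1 := hn p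
  rw [hp'] at h1
  have hv0 : v ≠ 0 := fun h => hv (by simp [h])
  have : c ^ p = 1 := by
    have h2 : (c ^ p - 1) • v = 0 := by rw [sub_smul, ← h1, one_smul]; exact sub_self v
    exact sub_eq_zero.1 ((smul_eq_zero.1 h2).resolve_right hv0)
  exact fix_aniso3 hs h3 hiso hp' hv (by rw [hc, eq_one_of_pow_char this, one_smul])

/-- A non-trivial isometry of order `p` fixes a singular line and no more. -/
lemma exists_singular_fix_line (hs : Sym β) (h3 : finrank F W = 3) {t : W →ₗ[F] W} (ht : IsSO β t)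
    (hp' : (t : Module.End F W) ^ p = 1) (hne : t ≠ LinearMap.id) :
    ∃ f, f ≠ 0 ∧ β f f = 0 ∧ t f = f ∧ ∀ x, t x = x → ∃ c : F, x = c • f := by
  obtain ⟨f, hf0, hf, hfix⟩ := exists_fix_line hs h3 ht hne
  exact ⟨f, hf0, by_contra fun hff => hne (fix_aniso3 hs h3 ht.1 hp' hff hf), hf, hfix⟩

end charp

/-- The fixed vectors of an Eichler map. -/
lemma eich_fix (hs : Sym β) (h3 : finrank F W = 3) {e e' y : W} (hf : Frame β e e') (hy : y ∈ mid β e e')
    (hy0 : y ≠ 0) {x : W} (hx : eich β e y x = x) : ∃ c : F, x = c • e := by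
  obtain ⟨hy1, hy2⟩ := mem_mid.1 hy
  have hyy : β y y ≠ 0 := fun h0 => hy0 (hf.aniso' hy h0)
  have h1 := congrArg (β y) hx
  rw [beta_mid_eich hs hf hy hy] at h1
  have he : β e x = 0 := (mul_eq_zero.1 (show β e x * β y y = 0 by linear_combination -h1)).resolve_right hyy
  have h2 := congrArg (β e') hx
  rw [beta_right_eich hs hf hy, he, mul_zero, sub_zero, add_eq_left] at h2
  refine ⟨β e' x, sub_eq_zero.1 ?_⟩
  have hm := hf.decomp hs x
  rw [he, zero_smul, sub_zero] at hm
  have hspan : F ∙ y = mid β e e' := by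
    refine Submodule.eq_of_le_of_finrank_le ((Submodule.span_singleton_le_iff_mem _ _).2 hy) ?_
    have := hf.finrank_mid hs
    rw [h3] at this
    rw [finrank_span_singleton hy0]
    omega
  refine hf.nd_mid hs _ hm fun z hz => ?_
  rw [← hspan] at hz
  obtain ⟨d, rfl⟩ := Submodule.mem_span_singleton.1 hz
  rw [hs.symm, map_smul, LinearMap.smul_apply, map_sub, map_smul, hs.symm y e, hy1, h2]
  simp

lemma eich_ne_id (hs : Sym β) (h3 : finrank F W = 3) {e e' y : W} (hf : Frame β e e') (hy : y ∈ mid β e e')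
    (hy0 : y ≠ 0) : eich β e y ≠ LinearMap.id := fun h => by
  obtain ⟨c, hc⟩ := eich_fix hs h3 hf hy hy0 (x := y) (by rw [h]; rfl)
  exact hy0 (hf.aniso' hy (by rw [hc]; simp [hf.left]))

lemma eich_cube (hs : Sym β) {e e' y : W} (hf : Frame β e e') (hy : y ∈ mid β e e') :
    ((eich β e y : Module.End F W) - 1) ^ 3 = 0 := by
  set N : Module.End F W := (eich β e y : Module.End F W) - 1 with hN
  have h1 : N e = 0 := by simp [hN, eich_left hs hf hy]
  have h2 : ∀ z ∈ mid β e e', N z = β y z • e := fun z hz => by simp [hN, eich_mid hs hf hz]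
  have h3 : N e' = -y - (β y y / 2) • e := by
    simp only [hN, LinearMap.sub_apply, Module.End.one_apply, eich_right hs hf hy]
    abel
  refine hf.hom_ext hs ?_ ?_ fun z hz => ?_
  · simp [pow_succ, Module.End.mul_apply, h1]
  · simp [pow_succ, Module.End.mul_apply, h1, h3, h2 y hy]
  · simp [pow_succ, Module.End.mul_apply, h1, h2 z hz]

end three

variable {F A B V : Type*} [Field F] [Finite F] [AddCommGroup A] [Module F A] [AddCommGroup B]
  [Module F B] [AddCommGroup V] [Module F V] [FiniteDimensional F A] [FiniteDimensional F B]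
  [FiniteDimensional F V]

/-- A map exchanging the two factors. -/
def IsA (S : Setting F A B V) (g : V ≃ₗ[F] V) : Prop :=
  ∃ (x : B ≃ₗ[F] A) (y : A ≃ₗ[F] B), ∀ a w, g (S.tp a w) = S.tp (x w) (y a)

/-- The elements of a group which preserve or exchange the two factors. -/
def hsub (S : Setting F A B V) (M : Subgroup (V ≃ₗ[F] V)) : Subgroup (V ≃ₗ[F] V) where
  carrier := {g | g ∈ M ∧ (S.IsT g ∨ IsA S g)}
  one_mem' := ⟨M.one_mem, Or.inl ⟨LinearEquiv.refl F A, LinearEquiv.refl F B, fun _ _ => rfl⟩⟩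
  mul_mem' := by
    rintro g h ⟨hg, hg'⟩ ⟨hh, hh'⟩
    refine ⟨M.mul_mem hg hh, ?_⟩
    rcases hg' with ⟨x, y, e⟩ | ⟨x, y, e⟩ <;> rcases hh' with ⟨x', y', e'⟩ | ⟨x', y', e'⟩
    · exact Or.inl ⟨x'.trans x, y'.trans y, fun a w => by simp [e, e']⟩
    · exact Or.inr ⟨x'.trans x, y'.trans y, fun a w => by simp [e, e']⟩
    · exact Or.inr ⟨y'.trans x, x'.trans y, fun a w => by simp [e, e']⟩
    · exact Or.inl ⟨y'.trans x, x'.trans y, fun a w => by simp [e, e']⟩
  inv_mem' := by
    rintro g ⟨hg, hg'⟩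
    refine ⟨M.inv_mem hg, ?_⟩
    rcases hg' with ⟨x, y, e⟩ | ⟨x, y, e⟩
    · exact Or.inl (S.isT_inv ⟨x, y, e⟩)
    · refine Or.inr ⟨y.symm, x.symm, fun a w => g.injective ?_⟩
      rw [show g (g⁻¹ (S.tp a w)) = S.tp a w from g.apply_symm_apply _, e, x.apply_symm_apply,
        y.apply_symm_apply]

lemma mem_hsub {S : Setting F A B V} {M : Subgroup (V ≃ₗ[F] V)} {g : V ≃ₗ[F] V} :
    g ∈ hsub S M ↔ g ∈ M ∧ (S.IsT g ∨ IsA S g) := Iff.rfl

lemma hsub_swap (S : Setting F A B V) (M : Subgroup (V ≃ₗ[F] V)) : hsub S.swap M = hsub S M := by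
  ext g
  simp only [mem_hsub]
  refine and_congr_right fun _ => or_congr ?_ ?_
  · exact ⟨S.isT_of_swap, fun ⟨x, y, e⟩ => ⟨y, x, fun w a => e a w⟩⟩
  · exact ⟨fun ⟨x, y, e⟩ => ⟨y, x, fun a w => e w a⟩, fun ⟨x, y, e⟩ => ⟨y, x, fun w a => e a w⟩⟩

lemma coe_pow_apply (g : V ≃ₗ[F] V) (n : ℕ) (X : V) :
    (g ^ n) X = (((g : V →ₗ[F] V) : Module.End F V) ^ n) X := by
  induction n generalizing X with
  | zero => rfl
  | succ n ih => rw [pow_succ, pow_succ, LinearEquiv.mul_apply, ih]; rfl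

/-- The hypotheses for a decomposition of a nine-dimensional space. -/
structure Hyp3 (S : Setting F A B V) (M : Subgroup (V ≃ₗ[F] V)) : Prop extends Sq S M where
  tau : ∃ g ∈ M, IsA S g
  neg_notMem : ∀ s t, IsSO S.al s → IsSO S.be t → ¬ InM M (-S.tmap s t)

namespace Hyp3

variable {S : Setting F A B V} {M : Subgroup (V ≃ₗ[F] V)}

lemma swap (H : Hyp3 S M) : Hyp3 S.swap M where
  toSq := H.toSq.swap
  tau := by
    obtain ⟨g, hg, x, y, e⟩ := H.tau
    exact ⟨g, hg, y, x, fun w a => e a w⟩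
  neg_notMem := fun s t hs ht => by
    rw [S.tmap_swap]
    exact H.neg_notMem t s ht hs

lemma posA (H : Hyp3 S M) : 0 < finrank F A := by rw [H.three]; norm_num

lemma posB (H : Hyp3 S M) : 0 < finrank F B := by rw [H.three']; norm_num

lemma exists_norm_one (H : Hyp3 S M) : (∃ a, S.al a a = 1) ∧ ∃ b, S.be b b = 1 := by
  refine ⟨?_, ?_⟩
  · obtain ⟨a, -, ha⟩ := S.sym_al.exists_value_in (B := ⊤) (fun u _ h => S.al_nd u fun z => h z trivial)
      (by rw [finrank_top, H.three]; norm_num) 1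
    exact ⟨a, ha⟩
  · obtain ⟨b, -, hb⟩ := S.sym_be.exists_value_in (B := ⊤) (fun u _ h => S.be_nd u fun z => h z trivial)
      (by rw [finrank_top, H.three']; norm_num) 1
    exact ⟨b, hb⟩

/-- A tensor map of the group is a product of two isometries of determinant one. -/
lemma normal_form (H : Hyp3 S M) {g : V ≃ₗ[F] V} (hg : g ∈ M) (hT : S.IsT g) :
    ∃ (s : A →ₗ[F] A) (t : B →ₗ[F] B), IsSO S.al s ∧ IsSO S.be t ∧ ∀ X, g X = S.tmap s t X := by
  classical
  obtain ⟨x, y, hxy⟩ := hT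
  obtain ⟨⟨a, ha⟩, b, hb⟩ := H.exists_norm_one
  have h1 : ∀ a a' b b', S.al (x a) (x a') * S.be (y b) (y b') = S.al a a' * S.be b b' := fun a a' b b' => by
    rw [← S.form_tp, ← hxy, ← hxy, H.iso g hg, S.form_tp]
  set ν := S.al (x a) (x a)
  have hν : ν ≠ 0 := fun h0 => one_ne_zero (α := F) (by
    have := h1 a a b b
    rw [ha, hb, show S.al (x a) (x a) = 0 from h0, zero_mul, one_mul] at this
    exact this.symm)
  have hyn : ∀ b b', S.be (y b) (y b') = ν⁻¹ * S.be b b' := fun b b' => by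
    have := h1 a a b b'
    rw [ha, one_mul] at this
    rw [← this]
    show _ = ν⁻¹ * (ν * S.be (y b) (y b'))
    rw [inv_mul_cancel_left₀ hν]
  have hxn : ∀ a a', S.al (x a) (x a') = ν * S.al a a' := fun a a' => by
    have := h1 a a' b b
    rw [hyn, hb, mul_one, mul_one] at this
    rw [← this]
    field_simp
  set bs := Module.finBasisOfFinrankEq F A H.three
  set G := LinearMap.BilinForm.toMatrix bs S.al
  set O := LinearMap.toMatrix bs bs (x : A →ₗ[F] A)
  have hG : G.det ≠ 0 := (LinearMap.BilinForm.nondegenerate_iff_det_ne_zero bs).1 S.sym_al.nondegenerate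
  have hO : O.transpose * G * O = ν • G := by
    rw [← LinearMap.BilinForm.toMatrix_comp bs bs S.al (x : A →ₗ[F] A) (x : A →ₗ[F] A)]
    ext i j
    simp [G, LinearMap.BilinForm.toMatrix_apply, hxn]
  have e2 := congrArg Matrix.det hO
  rw [Matrix.det_mul, Matrix.det_mul, Matrix.det_transpose, Matrix.det_smul, Fintype.card_fin] at e2
  set d := LinearMap.det (x : A →ₗ[F] A) with hd
  have hOd : O.det = d := LinearMap.det_toMatrix bs _
  rw [hOd] at e2
  have e3 : d * d = ν ^ 3 := mul_right_cancel₀ hG (by linear_combination e2)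
  have hd0 : d ≠ 0 := fun h0 => hν (by
    rw [h0, mul_zero, eq_comm] at e3
    exact eq_zero_of_pow_eq_zero e3)
  set c := d / ν with hc
  have hc0 : c ≠ 0 := div_ne_zero hd0 hν
  have hcc : c * c = ν := by rw [hc]; field_simp; linear_combination e3
  have hs : IsSO S.al (c⁻¹ • (x : A →ₗ[F] A)) := by
    refine ⟨fun u u' => ?_, ?_⟩
    · simp [hxn, ← hcc]
      field_simp
    · rw [LinearMap.det_smul, H.three, ← hd, inv_pow]
      field_simp
      rw [hc]
      field_simp
      linear_combination -e3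
  have ht : IsIso S.be (c • (y : B →ₗ[F] B)) := fun u u' => by
    simp [hyn, ← hcc]
    field_simp
  have he : ∀ X, g X = S.tmap (c⁻¹ • (x : A →ₗ[F] A)) (c • (y : B →ₗ[F] B)) X := fun X =>
    LinearMap.congr_fun (f := (g : V →ₗ[F] V)) (g := S.tmap (c⁻¹ • (x : A →ₗ[F] A)) (c • (y : B →ₗ[F] B)))
      (S.hom_ext fun u v => by simp [hxy, smul_smul, hc0]) X
  rcases det_iso S.sym_be ht with hdt | hdt
  · exact ⟨_, _, hs, ⟨ht, hdt⟩, he⟩
  · refine absurd ⟨g, hg, fun X => ?_⟩ (H.neg_notMem _ _ hs (isSO_neg H.three' ht hdt))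
    have : S.tmap (c⁻¹ • (x : A →ₗ[F] A)) (-(c • (y : B →ₗ[F] B))) =
        -S.tmap (c⁻¹ • (x : A →ₗ[F] A)) (c • (y : B →ₗ[F] B)) :=
      S.hom_ext fun u v => by simp [smul_comm c c⁻¹]
    rw [this, neg_neg, he]

/-- Isometries of determinant one are determined by their tensor product. -/
lemma tmap_inj (H : Hyp3 S M) {s s' : A →ₗ[F] A} {t t' : B →ₗ[F] B} (hs : IsSO S.al s) (ht : IsSO S.be t)
    (hs' : IsSO S.al s') (ht' : IsSO S.be t') (h : S.tmap s t = S.tmap s' t') : s = s' ∧ t = t' := by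
  set sE := isoEquiv S.sym_al hs'.1
  set tE := isoEquiv S.sym_be ht'.1
  have h2 : S.tmap ((sE.symm : A →ₗ[F] A) ∘ₗ s) ((tE.symm : B →ₗ[F] B) ∘ₗ t) = LinearMap.id := by
    rw [← S.tmap_comp, h, S.tmap_comp,
      show (sE.symm : A →ₗ[F] A) ∘ₗ s' = LinearMap.id from LinearMap.ext fun a => sE.symm_apply_apply a,
      show (tE.symm : B →ₗ[F] B) ∘ₗ t' = LinearMap.id from LinearMap.ext fun a => tE.symm_apply_apply a, S.tmap_id]
  obtain ⟨c, hca, hcb⟩ := S.tmap_eq_one H.posA H.posB h2
  have hsc : s = c • s' := LinearMap.ext fun a => by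
    have := congrArg s' (hca a)
    simp only [LinearMap.comp_apply, LinearEquiv.coe_coe, map_smul] at this
    rw [show s' (sE.symm (s a)) = s a from sE.apply_symm_apply _] at this
    exact this
  obtain ⟨⟨a, ha⟩, -⟩ := H.exists_norm_one
  have hc2 : c * c = 1 := by
    have := hs.1 a a
    rw [hsc] at this
    simpa [hs'.1 a a, ha] using this
  have hc3 : c ^ 3 = 1 := by
    have := hs.2
    rwa [hsc, LinearMap.det_smul, hs'.2, H.three, mul_one] at this
  have hc : c = 1 := by
    rw [show c ^ 3 = c * (c * c) by ring, hc2, mul_one] at hc3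
    exact hc3
  refine ⟨by rw [hsc, hc, one_smul], LinearMap.ext fun b => ?_⟩
  have := congrArg t' (hcb b)
  rw [hc, one_smul, LinearMap.comp_apply] at this
  rwa [show t' ((tE.symm : B →ₗ[F] B) (t b)) = t b from tE.apply_symm_apply _] at this

lemma isSO_rotA (H : Hyp3 S M) {v : A} (hv : S.al v v ≠ 0) : IsSO S.al (rot S.al v) :=
  rot_isSO S.sym_al (by rw [H.three]; decide) hv

lemma isSO_rotB (H : Hyp3 S M) {w : B} (hw : S.be w w ≠ 0) : IsSO S.be (rot S.be w) :=
  rot_isSO S.sym_be (by rw [H.three']; decide) hw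

/-- The tensor involutions of the group. -/
lemma invol_cases (H : Hyp3 S M) {c : V ≃ₗ[F] V} (hc : c ∈ M) (hT : S.IsT c) (hcc : c * c = 1) (hc1 : c ≠ 1) :
    (∃ v, S.al v v ≠ 0 ∧ ∀ X, c X = S.tmap (rot S.al v) LinearMap.id X) ∨
    (∃ w, S.be w w ≠ 0 ∧ ∀ X, c X = S.tmap LinearMap.id (rot S.be w) X) ∨
    ∃ v w, S.al v v ≠ 0 ∧ S.be w w ≠ 0 ∧ ∀ X, c X = S.tmap (rot S.al v) (rot S.be w) X := by
  obtain ⟨s, t, hs, ht, he⟩ := H.normal_form hc hT
  have h2 : S.tmap (s ∘ₗ s) (t ∘ₗ t) = S.tmap LinearMap.id LinearMap.id := by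
    rw [S.tmap_id]
    refine LinearMap.ext fun X => ?_
    rw [← S.tmap_comp, LinearMap.comp_apply, ← he, ← he]
    exact LinearEquiv.congr_fun hcc X
  obtain ⟨h3, h4⟩ := H.tmap_inj (hs.comp hs) (ht.comp ht) isSO_one isSO_one h2
  rcases isSO_invol S.sym_al H.three hs (LinearMap.congr_fun h3) with rfl | ⟨v, hv, rfl⟩ <;>
    rcases isSO_invol S.sym_be H.three' ht (LinearMap.congr_fun h4) with rfl | ⟨w, hw, rfl⟩
  · exact absurd (LinearEquiv.ext fun X => by rw [he, S.tmap_id]; rfl) hc1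
  · exact Or.inr (Or.inl ⟨w, hw, he⟩)
  · exact Or.inl ⟨v, hv, he⟩
  · exact Or.inr (Or.inr ⟨v, w, hv, hw, he⟩)

/-- The factors of an element of order `p` have order `p`. -/
lemma pow_normal (H : Hyp3 S M) {p : ℕ} {s : A →ₗ[F] A} {t : B →ₗ[F] B} (hs : IsSO S.al s) (ht : IsSO S.be t)
    {g : V ≃ₗ[F] V} (hg : g ^ p = 1) (he : ∀ X, g X = S.tmap s t X) :
    (s : Module.End F A) ^ p = 1 ∧ (t : Module.End F B) ^ p = 1 := by
  refine H.tmap_inj (isSO_pow hs p) (isSO_pow ht p) isSO_one isSO_one ?_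
  have h1 : (g : V →ₗ[F] V) = S.tmap s t := LinearMap.ext he
  rw [← S.tmap_pow, show S.tmap (1 : Module.End F A) (1 : Module.End F B) = LinearMap.id from S.tmap_id]
  refine LinearMap.ext fun X => ?_
  rw [← h1]
  exact (coe_pow_apply g p X).symm.trans (LinearEquiv.congr_fun hg X)

/-- The fixed space of a tensor involution with a non-trivial first factor. -/
lemma nfix_rot (H : Hyp3 S M) {v : A} (hv : S.al v v ≠ 0) (t : B →ₗ[F] B) :
    nfix (S.tmap (rot S.al v) t) =
      finrank F (LinearMap.ker (t - LinearMap.id)) + 2 * finrank F (LinearMap.ker (t + LinearMap.id)) := by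
  have hv0 : v ≠ 0 := fun h => hv (by simp [h])
  have hn := S.sym_al.nd_single hv
  have hc : IsCompl (F ∙ v) (perp S.al (F ∙ v)) :=
    ⟨disjoint_iff.2 (S.sym_al.inf_perp hn), codisjoint_iff.2 (S.sym_al.sup_perp hn)⟩
  have hdim : finrank F (perp S.al (F ∙ v)) = 2 := by
    have := S.sym_al.finrank_perp (F ∙ v)
    rw [finrank_span_singleton hv0, H.three] at this
    omega
  let bA : Basis (Fin 1 ⊕ Fin 2) F A :=
    ((Module.finBasisOfFinrankEq F (F ∙ v) (finrank_span_singleton hv0)).prod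
      (Module.finBasisOfFinrankEq F (perp S.al (F ∙ v)) hdim)).map (Submodule.prodEquivOfIsCompl _ _ hc)
  have he : ∀ i, rot S.al v (bA i) = Sum.elim (fun _ : Fin 1 => (1 : F)) (fun _ : Fin 2 => -1) i • bA i := by
    rintro (i | i)
    · set x := Module.finBasisOfFinrankEq F (F ∙ v) (finrank_span_singleton hv0) i
      have hb : bA (Sum.inl i) = (x : A) := by simp [bA, x]
      obtain ⟨c, hc⟩ := Submodule.mem_span_singleton.1 x.2
      simp only [hb, Sum.elim_inl, one_smul]
      rw [← hc, map_smul, rot_self S.sym_al hv]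
    · set x := Module.finBasisOfFinrankEq F (perp S.al (F ∙ v)) hdim i
      have hb : bA (Sum.inr i) = (x : A) := by simp [bA, x]
      simp only [hb, Sum.elim_inr, neg_one_smul]
      exact rot_perp (mem_perp_single.1 x.2)
  rw [S.nfix_tmap bA _ (H.isSO_rotA hv).1 he (by rintro (i | i) <;> simp)]
  have e1 : LinearMap.ker (t - (1 : F) • LinearMap.id) = LinearMap.ker (t - LinearMap.id) := by rw [one_smul]
  have e2 : LinearMap.ker (t - (-1 : F) • LinearMap.id) = LinearMap.ker (t + LinearMap.id) := by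
    rw [neg_one_smul, sub_neg_eq_add]
  rw [Fintype.sum_sum_type]
  show (∑ _i : Fin 1, finrank F (LinearMap.ker (t - (1 : F) • LinearMap.id))) +
    (∑ _i : Fin 2, finrank F (LinearMap.ker (t - (-1 : F) • LinearMap.id))) = _
  rw [e1, e2]
  simp

lemma nfix_pure (H : Hyp3 S M) {v : A} (hv : S.al v v ≠ 0) : nfix (S.tmap (rot S.al v) LinearMap.id) = 3 := by
  have h0 : LinearMap.ker (LinearMap.id + LinearMap.id : B →ₗ[F] B) = ⊥ := by
    refine LinearMap.ker_eq_bot'.2 fun x hx => ?_
    rw [LinearMap.add_apply, LinearMap.id_apply, ← two_smul F] at hx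
    exact (smul_eq_zero.1 hx).resolve_left S.two
  rw [H.nfix_rot hv, h0, sub_self, LinearMap.ker_zero, finrank_top, H.three', finrank_bot]

lemma nfix_mixed (H : Hyp3 S M) {v : A} (hv : S.al v v ≠ 0) {w : B} (hw : S.be w w ≠ 0) :
    nfix (S.tmap (rot S.al v) (rot S.be w)) = 5 := by
  have hw0 : w ≠ 0 := fun h => hw (by simp [h])
  have h1 : LinearMap.ker (rot S.be w - LinearMap.id) = F ∙ w := by
    ext x
    rw [mem_ker_sub_id, Submodule.mem_span_singleton]
    constructor
    · intro hx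
      obtain ⟨c, hc⟩ := rot_fixed S.sym_be hw hx
      exact ⟨c, hc.symm⟩
    · rintro ⟨c, rfl⟩
      rw [map_smul, rot_self S.sym_be hw]
  have h2 := finrank_ker_add_ker S.two (rot_rot S.sym_be w)
  rw [h1, finrank_span_singleton hw0, H.three'] at h2
  rw [H.nfix_rot hv, h1, finrank_span_singleton hw0]
  omega

end Hyp3

end CfsgLib.OTensorSq17
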