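import Cfsg.Agent.OTensorSq17.Conj

/-!
Without root maps the centralisers of the mixed involutions, and then the whole group, preserve the decomposition.
-/

set_option autoImplicit false
set_option linter.unusedSectionVars false
set_option linter.unusedSimpArgs false
set_option linter.unusedVariables false

namespace CfsgLib.OTensorSq17

open Module CfsgLib.SpO90 CfsgLib.OTensor90

section rots

variable {F : Type*} [Field F] [Finite F] {W : Type*} [AddCommGroup W] [Module F W] [FiniteDimensional F W]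
variable {β : LinearMap.BilinForm F W}

/-- The product of two reflections in the members of an orthogonal triple. -/
lemma refl_refl_eq_rot (hs : Sym β) (h3 : finrank F W = 3) {a b c : W} (ha : β a a ≠ 0) (hb : β b b ≠ 0)
    (hc : β c c ≠ 0) (hab : β a b = 0) (hac : β a c = 0) (hbc : β b c = 0) :
    refl β a ∘ₗ refl β b = rot β c := by
  set f : Fin 3 → W := ![a, b, c] with hf
  have hba : β b a = 0 := by rw [hs.symm]; exact hab
  have hca : β c a = 0 := by rw [hs.symm]; exact hac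
  have hcb : β c b = 0 := by rw [hs.symm]; exact hbc
  have ho : ∀ i j, i ≠ j → β (f i) (f j) = 0 := by
    intro i j hij
    fin_cases i <;> fin_cases j <;> first
      | exact absurd rfl hij
      | simp [hf, hab, hac, hbc, hba, hca, hcb]
  have hd : ∀ i, β (f i) (f i) ≠ 0 := by
    intro i
    fin_cases i <;> simpa [hf]
  have hli : LinearIndependent F f :=
    LinearMap.linearIndependent_of_isOrthoᵢ (B := β) (fun i j hij => ho i j hij) fun i h => hd i h
  let bs := basisOfLinearIndependentOfCardEqFinrank hli (by rw [h3, Fintype.card_fin])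
  have hbs : ∀ i, bs i = f i := fun i => by rw [coe_basisOfLinearIndependentOfCardEqFinrank]
  refine bs.ext fun i => ?_
  rw [hbs]
  fin_cases i <;> simp [hf, hab, hac, hbc, hba, hca, hcb, refl_apply, rot_apply]
  all_goals first
    | (field_simp; module)
    | module
    | (match_scalars <;> field_simp <;> ring)

lemma rot_comp_rot (hs : Sym β) (h3 : finrank F W = 3) {a b c : W} (ha : β a a ≠ 0) (hb : β b b ≠ 0)
    (hc : β c c ≠ 0) (hab : β a b = 0) (hac : β a c = 0) (hbc : β b c = 0) :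
    rot β a ∘ₗ rot β b = rot β c := by
  rw [← refl_refl_eq_rot hs h3 ha hb hc hab hac hbc]
  exact LinearMap.ext fun x => by simp [rot]

/-- Commuting rotations have equal or orthogonal axes. -/
lemma rot_commute_cases (hs : Sym β) {a b : W} (ha : β a a ≠ 0) (hb : β b b ≠ 0)
    (h : rot β a ∘ₗ rot β b = rot β b ∘ₗ rot β a) : rot β a = rot β b ∨ β a b = 0 := by
  have h1 : rot β a (rot β b a) = rot β b a := by
    rw [← LinearMap.comp_apply, h, LinearMap.comp_apply, rot_self hs ha]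
  obtain ⟨d, hd⟩ := rot_fixed hs ha h1
  have hiso : β (rot β b a) (rot β b a) = β a a := by simp [rot, hs.refl_isIso b a a]
  rw [hd, map_smul, map_smul, LinearMap.smul_apply, smul_eq_mul, smul_eq_mul, ← mul_assoc] at hiso
  have hdd : d * d = 1 := mul_right_cancel₀ ha (by rw [one_mul]; exact hiso)
  rcases mul_self_eq_one_iff.1 hdd with rfl | rfl
  · rw [one_smul] at hd
    obtain ⟨c, hc⟩ := rot_fixed hs hb hd
    exact Or.inl (by rw [hc]; exact rot_smul_vec β fun h0 => ha (by simp [hc, h0]))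
  · rw [rot_apply, neg_one_smul, sub_eq_neg_self, smul_eq_zero] at hd
    rcases hd with h0 | h0
    · rw [mul_eq_zero, div_eq_zero_iff] at h0
      rcases h0 with (h0 | h0) | h0
      · exact absurd h0 hs.two_ne
      · exact absurd h0 hb
      · exact Or.inr (by rw [hs.symm]; exact h0)
    · exact absurd (by simp [h0]) hb

end rots

variable {F A B V : Type*} [Field F] [Finite F] [AddCommGroup A] [Module F A] [AddCommGroup B]
  [Module F B] [AddCommGroup V] [Module F V] [FiniteDimensional F A] [FiniteDimensional F B]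
  [FiniteDimensional F V]

lemma equiv_ext_tmap {S : Setting F A B V} {g h : V ≃ₗ[F] V} {s : A →ₗ[F] A} {t : B →ₗ[F] B}
    (hg : ∀ X, g X = S.tmap s t X) (hh : ∀ X, h X = S.tmap s t X) : g = h :=
  LinearEquiv.ext fun X => by rw [hg, hh]

lemma mul_apply_tmap {S : Setting F A B V} {g h : V ≃ₗ[F] V} {s s' : A →ₗ[F] A} {t t' : B →ₗ[F] B}
    (hg : ∀ X, g X = S.tmap s t X) (hh : ∀ X, h X = S.tmap s' t' X) (X : V) :
    (g * h) X = S.tmap (s ∘ₗ s') (t ∘ₗ t') X := by
  rw [LinearEquiv.mul_apply, hg, hh, ← LinearMap.comp_apply, S.tmap_comp]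

lemma nfix_conj {g h : V ≃ₗ[F] V} : nfix (g * h * g⁻¹).toLinearMap = nfix h.toLinearMap := by
  refine (nfix_eq_of_conj (g := g) fun X => ?_).symm
  show g (h X) = g (h (g⁻¹ (g X)))
  rw [show g⁻¹ (g X) = X from g.symm_apply_apply X]

lemma conj_mem_centralizer {G : Type*} [Group G] {g a b : G} (h : g * a * g⁻¹ * b = b * (g * a * g⁻¹)) :
    g⁻¹ * b * g * a = a * (g⁻¹ * b * g) := by
  calc g⁻¹ * b * g * a = g⁻¹ * (b * (g * a * g⁻¹)) * g := by group
    _ = _ := by rw [← h]; group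

namespace Hyp3

variable {S : Setting F A B V} {M : Subgroup (V ≃ₗ[F] V)}

lemma exists_pure_perp (H : Hyp3 S M) {v : A} (hv : S.al v v ≠ 0) :
    ∃ v', S.al v' v' ≠ 0 ∧ S.al v v' = 0 ∧ InM M (S.tmap (rot S.al v') LinearMap.id) := by
  have hv0 : v ≠ 0 := fun h => hv (by simp [h])
  have hn := S.sym_al.nd_single hv
  have hd : finrank F (perp S.al (F ∙ v)) = 2 := by
    have := S.sym_al.finrank_perp (F ∙ v)
    rw [finrank_span_singleton hv0, H.three] at this
    omega
  obtain ⟨b, hb, hbb⟩ := S.sym_al.exists_value_in (S.sym_al.nd_perp hn) (by omega) (S.al v v)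
  have hvb : S.al v b = 0 := mem_perp_single.1 hb
  have hbb0 : S.al b b ≠ 0 := by rw [hbb]; exact hv
  have h1 := S.sym_al.finrank_inf_perp (perp S.al (F ∙ v)) b
  obtain ⟨c, ⟨hc1, hc2⟩, hc0⟩ := Submodule.exists_mem_ne_zero_of_ne_bot
    (p := perp S.al (F ∙ v) ⊓ perp S.al (F ∙ b)) (fun h0 => by rw [h0, finrank_bot, hd] at h1; omega)
  have hvc : S.al v c = 0 := mem_perp_single.1 hc1
  have hbc : S.al b c = 0 := mem_perp_single.1 hc2
  have hcc : S.al c c ≠ 0 := by
    intro h0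
    have hz := eq_zero_of_perp_pair S.sym_al (S.sym_al.nd_perp hn) hd hb hc1
      (fun h => hbb0 (by simp [h])) (fun d hdc => hc0 (by
        rw [hdc, map_smul, smul_eq_mul] at hbc
        rw [hdc, (mul_eq_zero.1 hbc).resolve_right hbb0, zero_smul])) hc1 hbc h0
    exact hc0 hz
  refine ⟨c, hcc, hvc, ?_⟩
  rw [← refl_refl_eq_rot S.sym_al H.three hv hbb0 hcc hvb hvc hbc]
  exact H.memA v b hv hbb0 ⟨S.al v v, by rw [hbb]⟩

lemma mul_self_of_tmap (H : Hyp3 S M) {g : V ≃ₗ[F] V} {s : A →ₗ[F] A} {t : B →ₗ[F] B}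
    (hg : ∀ X, g X = S.tmap s t X) (hs : ∀ a, s (s a) = a) (ht : ∀ b, t (t b) = b) : g * g = 1 := by
  refine LinearEquiv.ext fun X => ?_
  rw [mul_apply_tmap hg hg, show s ∘ₗ s = LinearMap.id from LinearMap.ext hs,
    show t ∘ₗ t = LinearMap.id from LinearMap.ext ht, S.tmap_id]
  rfl

lemma eq_of_tmap (H : Hyp3 S M) {g h : V ≃ₗ[F] V} {s s' : A →ₗ[F] A} {t t' : B →ₗ[F] B}
    (hg : ∀ X, g X = S.tmap s t X) (hh : ∀ X, h X = S.tmap s' t' X) (hs : IsSO S.al s) (ht : IsSO S.be t)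
    (hs' : IsSO S.al s') (ht' : IsSO S.be t') (e : g = h) : s = s' ∧ t = t' :=
  H.tmap_inj hs ht hs' ht' (LinearMap.ext fun X => by rw [← hg, ← hh, e])

lemma isT_of_pow (H : Hyp3 S M) {p : ℕ} (hp : Odd p) {z : V ≃ₗ[F] V} (hz : z ∈ hsub S M) (hzp : z ^ p = 1) :
    S.IsT z := by
  have h2 : S.IsT (z * z) := by
    rcases hz.2 with hT | ⟨x, y, e⟩
    · exact S.isT_mul hT hT
    · exact ⟨y.trans x, x.trans y, fun a w => by simp [e]⟩
  have hn : ∀ n : ℕ, S.IsT ((z * z) ^ n) := by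
    intro n
    induction n with
    | zero => exact ⟨LinearEquiv.refl F A, LinearEquiv.refl F B, fun _ _ => rfl⟩
    | succ n ih => rw [pow_succ]; exact S.isT_mul ih h2
  obtain ⟨m, hm⟩ := hp
  have e : z = (z * z) ^ (m + 1) := by
    rw [← pow_two, ← pow_mul, show 2 * (m + 1) = p + 1 by omega, pow_succ, hzp, one_mul]
  rw [e]
  exact hn _

/-- An exchanging involution is conjugate to no mixed involution with controlled centraliser. -/
lemma not_isA_conj_mixed (H : Hyp3 S M) {v : A} (hv : S.al v v ≠ 0) {w : B} (hw : S.be w w ≠ 0) {i : V ≃ₗ[F] V}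
    (hi' : i ∈ M) (hi : ∀ X, i X = S.tmap (rot S.al v) (rot S.be w) X)
    (hC : ∀ x ∈ M, x * i = i * x → x ∈ hsub S M) {g : V ≃ₗ[F] V} (hg : g ∈ M) : ¬ IsA S (g * i * g⁻¹) := by
  obtain ⟨p, hpc⟩ := CharP.exists F
  have := Fintype.ofFinite F
  have : Fact p.Prime := ⟨CharP.char_is_prime F p⟩
  intro hA
  have hii := H.mul_self_of_tmap hi (rot_rot S.sym_al v) (rot_rot S.sym_be w)
  obtain ⟨z, -, hz, -, hzp, -, hzj, -, hz1, -, -, -⟩ :=
    H.anti_pair p (M.mul_mem (M.mul_mem hg hi') (M.inv_mem hg))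
      (by rw [show g * i * g⁻¹ * (g * i * g⁻¹) = g * (i * i) * g⁻¹ by group, hii, mul_one, mul_inv_cancel]) hA
  have hc := conj_mem_centralizer (g := g) (a := i) (b := z) hzj.symm
  have hzM : g⁻¹ * z * g ∈ M := M.mul_mem (M.mul_mem (M.inv_mem hg) hz) hg
  have hp' : (g⁻¹ * z * g) ^ p = 1 := by
    rw [show g⁻¹ * z * g = g⁻¹ * z * g⁻¹⁻¹ by rw [inv_inv], conj_pow, hzp, mul_one, mul_inv_cancel]
  have hodd : Odd p := (Fact.out : p.Prime).odd_of_ne_two fun h2 => S.two (by
    subst h2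
    exact (CharP.cast_eq_zero F 2))
  obtain ⟨s, t, hs, ht, he⟩ := H.normal_form hzM (H.isT_of_pow hodd (hC _ hzM hc) hp')
  obtain ⟨hsp, htp⟩ := H.pow_normal hs ht hp' he
  have hr := H.isSO_rotA hv
  have hr' := H.isSO_rotB hw
  obtain ⟨e1, e2⟩ := H.eq_of_tmap (mul_apply_tmap he hi) (mul_apply_tmap hi he) (hs.comp hr) (ht.comp hr')
    (hr.comp hs) (hr'.comp ht) hc
  obtain rfl := rot_commute_fix3 (p := p) S.sym_al H.three hv hs.1 hsp e1
  obtain rfl := rot_commute_fix3 (p := p) S.sym_be H.three' hw ht.1 htp e2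
  refine hz1 ?_
  have h1 : g⁻¹ * z * g = 1 := LinearEquiv.ext fun X => by rw [he, S.tmap_id]; rfl
  rw [show z = g * (g⁻¹ * z * g) * g⁻¹ by group, h1, mul_one, mul_inv_cancel]

lemma pure_mem_hsub (H : Hyp3 S M) {k : V ≃ₗ[F] V} (hk' : k ∈ M) {s : A →ₗ[F] A} {t : B →ₗ[F] B}
    (hs : IsSO S.al s) (ht : IsSO S.be t) (hk : ∀ X, k X = S.tmap s t X) : k ∈ hsub S M :=
  ⟨hk', Or.inl ⟨isoEquiv S.sym_al hs.1, isoEquiv S.sym_be ht.1, fun a b => by rw [hk, S.tmap_tp]; rfl⟩⟩

/-- A tensor involution conjugate to a pure one is pure. -/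
lemma pure_cases (H : Hyp3 S M) {v : A} (hv : S.al v v ≠ 0) {k : V ≃ₗ[F] V}
    (hk : ∀ X, k X = S.tmap (rot S.al v) LinearMap.id X) (g : V ≃ₗ[F] V) (hgM : g * k * g⁻¹ ∈ M)
    (hT : S.IsT (g * k * g⁻¹)) :
    (∃ a, S.al a a ≠ 0 ∧ ∀ X, (g * k * g⁻¹) X = S.tmap (rot S.al a) LinearMap.id X) ∨
      ∃ b, S.be b b ≠ 0 ∧ ∀ X, (g * k * g⁻¹) X = S.tmap LinearMap.id (rot S.be b) X := by
  have hkk := H.mul_self_of_tmap hk (rot_rot S.sym_al v) (fun _ => rfl)
  have h3 : nfix k.toLinearMap = 3 := by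
    rw [show k.toLinearMap = S.tmap (rot S.al v) LinearMap.id from LinearMap.ext hk, H.nfix_pure hv]
  have hk1 : k ≠ 1 := fun h => rot_ne_id S.sym_al H.three hv (H.eq_of_tmap hk
    (fun X => by rw [S.tmap_id]; rfl) (H.isSO_rotA hv) isSO_one isSO_one isSO_one h).1
  rcases H.invol_cases hgM hT
      (by rw [show g * k * g⁻¹ * (g * k * g⁻¹) = g * (k * k) * g⁻¹ by group, hkk, mul_one, mul_inv_cancel])
      (fun h => hk1 (conj_eq_one_iff.1 h)) with h | h | ⟨a, b, ha, hb, he⟩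
  · exact Or.inl h
  · exact Or.inr h
  · exfalso
    rw [← nfix_conj (g := g), show (g * k * g⁻¹).toLinearMap = S.tmap (rot S.al a) (rot S.be b) from LinearMap.ext he,
      H.nfix_mixed ha hb] at h3
    omega

set_option maxHeartbeats 1000000 in
/-- The centraliser of a mixed involution which is a product of two pure ones of the group. -/
theorem centralizer_split (H : Hyp3 S M) (hno : NoRoot S M) {v : A} (hv : S.al v v ≠ 0) {w : B}
    (hw : S.be w w ≠ 0) {i k : V ≃ₗ[F] V} (hi' : i ∈ M) (hk' : k ∈ M)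
    (hi : ∀ X, i X = S.tmap (rot S.al v) (rot S.be w) X) (hk : ∀ X, k X = S.tmap (rot S.al v) LinearMap.id X)
    {x : V ≃ₗ[F] V} (hx : x ∈ M) (hxi : x * i = i * x) : x ∈ hsub S M := by
  classical
  have : Finite V := Module.finite_of_finite F
  have : Finite (V ≃ₗ[F] V) := Finite.of_injective (fun f : V ≃ₗ[F] V => (f : V → V)) DFunLike.coe_injective
  obtain ⟨v', hv', hvv', e, he', he⟩ := H.exists_pure_perp hv
  have hr := H.isSO_rotA hv
  have hr' := H.isSO_rotA hv'
  have hrw := H.isSO_rotB hw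
  have hid : IsSO S.be (LinearMap.id : B →ₗ[F] B) := isSO_one
  have hv'v : S.al v' v = 0 := by rw [S.al_symm]; exact hvv'
  obtain ⟨c, hcc, hvc, hv'c⟩ : ∃ c, S.al c c ≠ 0 ∧ S.al v c = 0 ∧ S.al v' c = 0 := by
    have hv0 : v ≠ 0 := fun h => hv (by simp [h])
    have hn := S.sym_al.nd_perp (S.sym_al.nd_single hv)
    have hd : finrank F (perp S.al (F ∙ v)) = 2 := by
      have := S.sym_al.finrank_perp (F ∙ v)
      rw [finrank_span_singleton hv0, H.three] at this
      omega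
    have hmem : v' ∈ perp S.al (F ∙ v) := mem_perp_single.2 hvv'
    have h1 := S.sym_al.finrank_inf_perp (perp S.al (F ∙ v)) v'
    obtain ⟨c, ⟨hc1, hc2⟩, hc0⟩ := Submodule.exists_mem_ne_zero_of_ne_bot
      (p := perp S.al (F ∙ v) ⊓ perp S.al (F ∙ v')) (fun h0 => by rw [h0, finrank_bot, hd] at h1; omega)
    refine ⟨c, fun h0 => hc0 ?_, mem_perp_single.1 hc1, mem_perp_single.1 hc2⟩
    exact eq_zero_of_perp_pair S.sym_al hn hd hmem hc1 (fun h => hv' (by simp [h])) (fun d hdc => hc0 (by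
      have h2 := mem_perp_single.1 hc2
      rw [hdc, map_smul, smul_eq_mul] at h2
      rw [hdc, (mul_eq_zero.1 h2).resolve_right hv', zero_smul])) hc1 (mem_perp_single.1 hc2) h0
  have hcomA : rot S.al v ∘ₗ rot S.al v' = rot S.al v' ∘ₗ rot S.al v := by
    rw [rot_comp_rot S.sym_al H.three hv hv' hcc hvv' hvc hv'c, rot_comp_rot S.sym_al H.three hv' hv hcc hv'v hv'c hvc]
  have hf : ∀ X, (k * e) X = S.tmap (rot S.al c) LinearMap.id X := fun X => by
    rw [mul_apply_tmap hk he, rot_comp_rot S.sym_al H.three hv hv' hcc hvv' hvc hv'c, LinearMap.id_comp]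
  have hki : k * i = i * k := equiv_ext_tmap (mul_apply_tmap hk hi) fun X => by
    rw [mul_apply_tmap hi hk, LinearMap.comp_id, LinearMap.id_comp]
  have hei : e * i = i * e := equiv_ext_tmap (mul_apply_tmap he hi) fun X => by
    rw [mul_apply_tmap hi he, LinearMap.comp_id, LinearMap.id_comp, hcomA]
  have hke : k * e = e * k := equiv_ext_tmap (mul_apply_tmap hk he) fun X => by
    rw [mul_apply_tmap he hk, hcomA]
  have hkk := H.mul_self_of_tmap hk (rot_rot S.sym_al v) (fun _ => rfl)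
  have hee := H.mul_self_of_tmap he (rot_rot S.sym_al v') (fun _ => rfl)
  have hii := H.mul_self_of_tmap hi (rot_rot S.sym_al v) (rot_rot S.sym_be w)
  set C : Subgroup (V ≃ₗ[F] V) := M ⊓ Subgroup.centralizer {i} with hC
  have hmemC : ∀ {y}, y ∈ M → y * i = i * y → y ∈ C := fun hy hc =>
    ⟨hy, Subgroup.mem_centralizer_singleton_iff.2 hc⟩
  have hCi : ∀ y : C, (y : V ≃ₗ[F] V) * i = i * y := fun y => Subgroup.mem_centralizer_singleton_iff.1 y.2.2
  set ic : C := ⟨i, hmemC hi' rfl⟩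
  set N := Subgroup.zpowers ic
  haveI : N.Normal := ⟨fun a ha g => by
    obtain ⟨n, rfl⟩ := Subgroup.mem_zpowers_iff.1 ha
    have hg : g * ic = ic * g := Subtype.ext (hCi g)
    rw [((Commute.zpow_right (show Commute g ic from hg) n)).eq, mul_inv_cancel_right]
    exact Subgroup.zpow_mem _ (Subgroup.mem_zpowers ic) n⟩
  have hN : ∀ a : C, a ∈ N → (a : V ≃ₗ[F] V) = 1 ∨ (a : V ≃ₗ[F] V) = i := by
    intro a ha
    obtain ⟨n, rfl⟩ := Subgroup.mem_zpowers_iff.1 ha
    have h2 : ic ^ (2 : ℤ) = 1 := by rw [zpow_two]; exact Subtype.ext hii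
    rcases Int.even_or_odd n with ⟨m, rfl⟩ | ⟨m, rfl⟩
    · left; rw [← two_mul, zpow_mul, h2, one_zpow]; rfl
    · right; rw [zpow_add, zpow_mul, h2, one_zpow, one_mul, zpow_one]
  have hmod : ∀ a b : C, (QuotientGroup.mk a : C ⧸ N) = QuotientGroup.mk b →
      (b : V ≃ₗ[F] V) = a ∨ (b : V ≃ₗ[F] V) = a * i := by
    intro a b h
    rcases hN _ (QuotientGroup.eq.1 h) with h | h
    · left
      rw [Subgroup.coe_mul, Subgroup.coe_inv, inv_mul_eq_one] at h
      exact h.symm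
    · right
      rw [Subgroup.coe_mul, Subgroup.coe_inv, inv_mul_eq_iff_eq_mul] at h
      exact h
  -- centralisers of the four-group modulo `i`
  have hstep : ∀ {a : V ≃ₗ[F] V} {u : A}, S.al u u ≠ 0 → (∀ X, a X = S.tmap (rot S.al u) LinearMap.id X) →
      a ∈ M → a * k = k * a → ∀ y : C, ∀ b : C, (b : V ≃ₗ[F] V) = a →
        (QuotientGroup.mk (y * b) : C ⧸ N) = QuotientGroup.mk (b * y) → (y : V ≃ₗ[F] V) ∈ hsub S M := by
    intro a u hu ha haM hak y b hb h
    have hcomk : (y : V ≃ₗ[F] V) * a * (y : V ≃ₗ[F] V)⁻¹ * k = k * (y * a * (y : V ≃ₗ[F] V)⁻¹) := by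
      rcases hmod _ _ h with h1 | h1 <;> rw [Subgroup.coe_mul, Subgroup.coe_mul, hb] at h1
      · rw [← h1, mul_inv_cancel_right, hak]
      · have e1 : (y : V ≃ₗ[F] V) * a * (y : V ≃ₗ[F] V)⁻¹ = a * i := by
          have h2 : (y : V ≃ₗ[F] V) * a = a * y * i := by
            rw [h1, mul_assoc, hii, mul_one]
          rw [h2, mul_assoc a, hCi y, ← mul_assoc a, mul_inv_cancel_right]
        rw [e1, mul_assoc, ← hki, ← mul_assoc, hak, mul_assoc]
    have hyM : (y : V ≃ₗ[F] V) ∈ M := y.2.1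
    have h1 := conj_mem_centralizer hcomk
    have hconjM : (y : V ≃ₗ[F] V)⁻¹ * k * y ∈ M := M.mul_mem (M.mul_mem (M.inv_mem hyM) hk') hyM
    have h2 : (y : V ≃ₗ[F] V)⁻¹ * k * (y : V ≃ₗ[F] V)⁻¹⁻¹ ∈ hsub S M := by
      rw [inv_inv]
      exact ⟨hconjM, Or.inl (H.isT_of_comm hno hu ha hconjM h1)⟩
    exact inv_mem_iff.1 (H.mem_hsub_of_conj hno hv hk' hk (M.inv_mem hyM) h2)
  set K := ((hsub S M).subgroupOf C).map (QuotientGroup.mk' N)
  have hK : K = ⊤ := by
    have hkC := hmemC hk' hki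
    have heC := hmemC he' hei
    have hkeC : k * e ∈ C := C.mul_mem hkC heC
    refine eq_top_of_isolated_four (t := (QuotientGroup.mk ⟨k, hkC⟩ : C ⧸ N))
      (e := QuotientGroup.mk ⟨e, heC⟩) K ?_ ?_ ?_ ?_ ?_ ?_ ?_ ?_ ?_ ?_
    · rw [← QuotientGroup.mk_mul]
      exact congrArg QuotientGroup.mk (Subtype.ext hkk : (⟨k, hkC⟩ : C) * ⟨k, hkC⟩ = 1)
    · intro h
      rcases hmod _ _ h.symm with h1 | h1
      · exact rot_ne_id S.sym_al H.three hv (H.eq_of_tmap hk (fun X => by rw [S.tmap_id]; rfl) hr hid isSO_one hid h1).1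
      · rw [Subgroup.coe_one, one_mul] at h1
        exact rot_ne_id S.sym_be H.three' hw (H.eq_of_tmap hi hk hr hrw hr hid h1.symm).2
    · rw [← QuotientGroup.mk_mul]
      exact congrArg QuotientGroup.mk (Subtype.ext hee : (⟨e, heC⟩ : C) * ⟨e, heC⟩ = 1)
    · intro h
      rcases hmod _ _ h.symm with h1 | h1
      · exact rot_ne_id S.sym_al H.three hv' (H.eq_of_tmap he (fun X => by rw [S.tmap_id]; rfl) hr' hid isSO_one hid h1).1
      · rw [Subgroup.coe_one, one_mul] at h1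
        exact rot_ne_id S.sym_be H.three' hw (H.eq_of_tmap hi he hr hrw hr' hid h1.symm).2
    · intro h
      have hne : rot S.al v' ≠ rot S.al v := fun h2 => by
        have h3 := LinearMap.congr_fun h2 v
        rw [rot_perp hv'v, rot_self S.sym_al hv] at h3
        have h4 : (2 : F) • v = 0 := by rw [two_smul]; nth_rw 1 [← h3]; exact neg_add_cancel v
        exact hv (by simp [(smul_eq_zero.1 h4).resolve_left S.two])
      rcases hmod _ _ h with h1 | h1
      · exact hne (H.eq_of_tmap he hk hr' hid hr hid h1).1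
      · exact rot_ne_id S.sym_be H.three' hw (by
          have := (H.eq_of_tmap he (mul_apply_tmap hk hi) hr' hid (hr.comp hr) (hid.comp hrw) h1).2
          rw [LinearMap.id_comp] at this
          exact this.symm)
    · rw [← QuotientGroup.mk_mul, ← QuotientGroup.mk_mul]
      exact congrArg QuotientGroup.mk (Subtype.ext hke)
    · -- isolation
      intro g hg
      obtain ⟨y, rfl⟩ := QuotientGroup.mk_surjective g
      rw [← QuotientGroup.mk_inv, ← QuotientGroup.mk_mul, ← QuotientGroup.mk_mul] at hg ⊢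
      set j := y * ⟨k, hkC⟩ * y⁻¹ with hj
      have hjv : (j : V ≃ₗ[F] V) = (y : V ≃ₗ[F] V) * k * (y : V ≃ₗ[F] V)⁻¹ := rfl
      have hjM : (j : V ≃ₗ[F] V) ∈ M := j.2.1
      have hyM : (y : V ≃ₗ[F] V) ∈ M := y.2.1
      have hy : (y : V ≃ₗ[F] V) ∈ hsub S M := by
        refine H.mem_hsub_of_conj hno hv hk' hk hyM ?_
        rw [← hjv]
        have hg' : (QuotientGroup.mk (⟨k, hkC⟩ * j) : C ⧸ N) = QuotientGroup.mk (j * ⟨k, hkC⟩) := by
          rw [QuotientGroup.mk_mul, QuotientGroup.mk_mul]; exact hg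
        rcases hmod _ _ hg' with h1 | h1
        · exact ⟨hjM, Or.inl (H.isT_of_comm hno hv hk hjM (show (j : V ≃ₗ[F] V) * k = k * j from h1))⟩
        · replace h1 : (j : V ≃ₗ[F] V) * k = k * j * i := h1
          refine H.mem_hsub_of_conj hno hv hk' hk hjM ?_
          have e1 : (j : V ≃ₗ[F] V) * k * (j : V ≃ₗ[F] V)⁻¹ = k * i := by
            rw [h1, mul_assoc k, hCi j, ← mul_assoc k, mul_inv_cancel_right]
          rw [e1]
          exact H.pure_mem_hsub (M.mul_mem hk' hi') (hr.comp hr) (hid.comp hrw) (mul_apply_tmap hk hi)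
      have hjH : (j : V ≃ₗ[F] V) ∈ hsub S M := by
        rw [hjv]
        exact (hsub S M).mul_mem ((hsub S M).mul_mem hy (H.pure_mem_hsub hk' hr hid hk)) ((hsub S M).inv_mem hy)
      have hjT : S.IsT ((y : V ≃ₗ[F] V) * k * (y : V ≃ₗ[F] V)⁻¹) :=
        hjH.2.resolve_right (H.not_isA_conj hno hv hk' hk hyM)
      have hji : ((y : V ≃ₗ[F] V) * k * (y : V ≃ₗ[F] V)⁻¹) * i = y * (k * i) * (y : V ≃ₗ[F] V)⁻¹ := by
        have h0 : i * (y : V ≃ₗ[F] V) = y * i := (hCi y).symm
        have h1 : (y : V ≃ₗ[F] V)⁻¹ * i = i * (y : V ≃ₗ[F] V)⁻¹ := by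
          rw [inv_mul_eq_iff_eq_mul, ← mul_assoc, ← h0, mul_inv_cancel_right]
        simp only [mul_assoc, h1]
      have h5 : ∀ X, (k * i) X = S.tmap LinearMap.id (rot S.be w) X := fun X => by
        rw [mul_apply_tmap hk hi, LinearMap.id_comp,
          show rot S.al v ∘ₗ rot S.al v = LinearMap.id from LinearMap.ext (rot_rot S.sym_al v)]
      have hT' : S.IsT (y * (k * i) * (y : V ≃ₗ[F] V)⁻¹) := by
        rw [← hji]
        exact S.isT_mul hjT (H.pure_mem_hsub hi' hr hrw hi |>.2.elim id fun _ =>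
          ⟨isoEquiv S.sym_al hr.1, isoEquiv S.sym_be hrw.1, fun a b => by rw [hi, S.tmap_tp]; rfl⟩)
      have hM' : (y : V ≃ₗ[F] V) * (k * i) * (y : V ≃ₗ[F] V)⁻¹ ∈ M :=
        M.mul_mem (M.mul_mem hyM (M.mul_mem hk' hi')) (M.inv_mem hyM)
      have hp2 := H.swap.pure_cases (v := w) hw (k := k * i) (fun X => by rw [h5, S.tmap_swap]; rfl) (y : V ≃ₗ[F] V) hM'
        (show S.swap.IsT _ from let ⟨x, y, e⟩ := hT'; ⟨y, x, fun w a => e a w⟩)
      refine Or.elim (H.pure_cases hv hk (y : V ≃ₗ[F] V) hjM hjT) (fun ⟨a, ha, hae⟩ => ?_) fun ⟨b, hb, hbe⟩ => ?_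
      · have hsA := H.isSO_rotA ha
        have h2 := mul_apply_tmap hae hi
        rw [hji] at h2
        rcases hp2 with ⟨b, hb, hbe⟩ | ⟨a', ha', hae'⟩
        · have hbe' : ∀ X, ((y : V ≃ₗ[F] V) * (k * i) * (y : V ≃ₗ[F] V)⁻¹) X =
              S.tmap LinearMap.id (rot S.be b) X := fun X => by rw [hbe, S.tmap_swap]; rfl
          obtain ⟨e1, -⟩ := H.eq_of_tmap h2 hbe' (hsA.comp hr) (hid.comp hrw) isSO_one (H.isSO_rotB hb) rfl
          have e2 : rot S.al a = rot S.al v := LinearMap.ext fun z => by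
            have := LinearMap.congr_fun e1 (rot S.al v z)
            simpa [rot_rot S.sym_al] using this
          refine congrArg QuotientGroup.mk (Subtype.ext ?_)
          rw [hjv]
          exact equiv_ext_tmap hae fun X => by rw [hk, e2]
        · exfalso
          have hae'' : ∀ X, ((y : V ≃ₗ[F] V) * (k * i) * (y : V ≃ₗ[F] V)⁻¹) X =
              S.tmap (rot S.al a') LinearMap.id X := fun X => by rw [hae', S.tmap_swap]; rfl
          obtain ⟨-, e2⟩ := H.eq_of_tmap h2 hae'' (hsA.comp hr) (hid.comp hrw) (H.isSO_rotA ha') hid rfl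
          exact rot_ne_id S.sym_be H.three' hw (by rwa [LinearMap.id_comp] at e2)
      · have hsB := H.isSO_rotB hb
        have h2 := mul_apply_tmap hbe hi
        rw [hji] at h2
        rcases hp2 with ⟨b', hb', hbe'⟩ | ⟨a', ha', hae'⟩
        · exfalso
          have hbe'' : ∀ X, ((y : V ≃ₗ[F] V) * (k * i) * (y : V ≃ₗ[F] V)⁻¹) X =
              S.tmap LinearMap.id (rot S.be b') X := fun X => by rw [hbe', S.tmap_swap]; rfl
          obtain ⟨e1, -⟩ := H.eq_of_tmap h2 hbe'' (isSO_one.comp hr) (hsB.comp hrw) isSO_one (H.isSO_rotB hb') rfl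
          exact rot_ne_id S.sym_al H.three hv (by rwa [LinearMap.id_comp] at e1)
        · have hae'' : ∀ X, ((y : V ≃ₗ[F] V) * (k * i) * (y : V ≃ₗ[F] V)⁻¹) X =
              S.tmap (rot S.al a') LinearMap.id X := fun X => by rw [hae', S.tmap_swap]; rfl
          obtain ⟨-, e1⟩ := H.eq_of_tmap h2 hae'' (isSO_one.comp hr) (hsB.comp hrw) (H.isSO_rotA ha') hid rfl
          have e2 : rot S.be b = rot S.be w := LinearMap.ext fun z => by
            have := LinearMap.congr_fun e1 (rot S.be w z)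
            simpa [rot_rot S.sym_be] using this
          have e3 : j = ⟨k, hkC⟩ * ic := Subtype.ext (equiv_ext_tmap hbe fun X => by
            show (k * i) X = _
            rw [h5, e2])
          rw [e3, QuotientGroup.mk_mul, (QuotientGroup.eq_one_iff ic).2 (Subgroup.mem_zpowers ic), mul_one]
    · intro g hg
      obtain ⟨y, rfl⟩ := QuotientGroup.mk_surjective g
      exact ⟨y, hstep hv hk hk' rfl y ⟨k, hkC⟩ rfl hg, rfl⟩
    · intro g hg
      obtain ⟨y, rfl⟩ := QuotientGroup.mk_surjective g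
      exact ⟨y, hstep hv' he he' hke.symm y ⟨e, heC⟩ rfl hg, rfl⟩
    · intro g hg
      obtain ⟨y, rfl⟩ := QuotientGroup.mk_surjective g
      exact ⟨y, hstep hcc hf (M.mul_mem hk' he') (by rw [mul_assoc, ← hke]) y ⟨k * e, hkeC⟩ rfl hg, rfl⟩
  obtain ⟨y, hy, hyx⟩ : (QuotientGroup.mk ⟨x, hmemC hx hxi⟩ : C ⧸ N) ∈ K := hK ▸ Subgroup.mem_top _
  rcases hmod y ⟨x, hmemC hx hxi⟩ hyx with h | h <;> rw [show x = _ from h]
  · exact hy
  · exact (hsub S M).mul_mem hy (H.pure_mem_hsub hi' hr hrw hi)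

end Hyp3

end CfsgLib.OTensorSq17
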