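import Cfsg.Agent.OTensorSq17.Fusion

/-!
An element mapping a pure involution into the stabiliser of the decomposition lies in it.
-/

set_option autoImplicit false
set_option linter.unusedSectionVars false
set_option linter.unusedSimpArgs false
set_option linter.unusedVariables false

namespace CfsgLib.OTensorSq17

open Module CfsgLib.SpO90 CfsgLib.OTensor90

variable {F A B V : Type*} [Field F] [Finite F] [AddCommGroup A] [Module F A] [AddCommGroup B]
  [Module F B] [AddCommGroup V] [Module F V] [FiniteDimensional F A] [FiniteDimensional F B]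
  [FiniteDimensional F V]

namespace Hyp3

variable {S : Setting F A B V} {M : Subgroup (V ≃ₗ[F] V)}

/-- A unipotent element of the second factor. -/
lemma exists_unipotent (H : Hyp3 S M) (p : ℕ) [Fact p.Prime] [CharP F p] :
    ∃ (f : B) (u : V ≃ₗ[F] V) (t : B →ₗ[F] B), u ∈ M ∧ (∀ X, u X = S.tmap LinearMap.id t X) ∧ u ^ p = 1 ∧
      u ≠ 1 ∧ f ≠ 0 ∧ S.be f f = 0 ∧ t f = f ∧ IsSO S.be t := by
  obtain ⟨f, hf00, hf0⟩ : ∃ f, S.be f f = 0 ∧ f ≠ 0 := by
    obtain ⟨f, -, h1, h2⟩ := S.sym_be.exists_iso_in (B := ⊤)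
      (fun x _ hx => S.be_nd x fun y => hx y trivial) (by rw [finrank_top]; exact H.dB)
    exact ⟨f, h2, h1⟩
  obtain ⟨f', hf⟩ := exists_frame S.sym_be H.wB hf00 hf0
  obtain ⟨y, hy, hy0⟩ := hf.exists_mid_ne S.sym_be H.dB
  have hfy := (mem_mid.1 hy).1
  obtain ⟨u, hu, hue⟩ := H.toSq.eichB_mem hf00 hfy
  refine ⟨f, u, _, hu, hue, LinearEquiv.ext fun X => ?_, fun h1 => ?_, hf0, hf00, eich_left S.sym_be hf hy,
    eich_isSO S.sym_be hf00 hfy⟩
  · rw [coe_pow_apply, show (u : V →ₗ[F] V) = S.tmap LinearMap.id (eich S.be f y) from LinearMap.ext hue,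
      S.tmap_pow, eich_pow_char S.sym_be p hf00 hfy, id_pow]
    exact LinearMap.congr_fun S.tmap_id X
  · refine eich_ne_id S.sym_be H.three' hf hy hy0 (H.tmap_inj isSO_one (eich_isSO S.sym_be hf00 hfy)
      isSO_one isSO_one ?_).2
    rw [S.tmap_id]
    exact LinearMap.ext fun X => by rw [← hue, h1]; rfl

/-- An element of order `p` commuting with `rot v ⊗ 1` fixes exactly the member of a singular vector. -/
lemma fix_of_comm (H : Hyp3 S M) (hno : NoRoot S M) {p : ℕ} [Fact p.Prime] [CharP F p] {v : A}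
    (hv : S.al v v ≠ 0) {k : V ≃ₗ[F] V} (hk : ∀ X, k X = S.tmap (rot S.al v) LinearMap.id X) {z : V ≃ₗ[F] V}
    (hz : z ∈ M) (hzk : z * k = k * z) (hzp : z ^ p = 1) (hz1 : z ≠ 1) :
    ∃ f, f ≠ 0 ∧ S.be f f = 0 ∧ (∀ a, z (S.tp a f) = S.tp a f) ∧ ∀ X, z X = X → ∃ a, X = S.tp a f := by
  obtain ⟨s, t, hs, ht, he⟩ := H.normal_form hz (H.isT_of_comm hno hv hk hz hzk)
  obtain ⟨hsp, htp⟩ := H.pow_normal hs ht hzp he
  have h2 : S.tmap (s ∘ₗ rot S.al v) t = S.tmap (rot S.al v ∘ₗ s) t := by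
    refine LinearMap.ext fun X => ?_
    conv_lhs => rw [← LinearMap.comp_id t, ← S.tmap_comp, LinearMap.comp_apply, ← he, ← hk]
    conv_rhs => rw [← LinearMap.id_comp t, ← S.tmap_comp, LinearMap.comp_apply, ← he, ← hk]
    exact LinearEquiv.congr_fun hzk X
  have hr := H.isSO_rotA hv
  obtain rfl := rot_commute_fix3 (p := p) S.sym_al H.three hv hs.1 hsp
    (H.tmap_inj (hs.comp hr) ht (hr.comp hs) ht h2).1
  obtain ⟨f, hf0, hff, hf, hfix⟩ := exists_singular_fix_line (p := p) S.sym_be H.three' ht htp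
    (fun h => hz1 (LinearEquiv.ext fun X => by rw [he, h, S.tmap_id]; rfl))
  refine ⟨f, hf0, hff, fun a => by rw [he, S.tmap_tp, hf]; rfl, fun X hX => ?_⟩
  exact fix_right S ht.1 hf0 hfix (by rw [← he, hX])

/-- The transported unipotent element. -/
lemma exists_transported (H : Hyp3 S M) (p : ℕ) [Fact p.Prime] [CharP F p] {v : A} {k : V ≃ₗ[F] V}
    (hk : ∀ X, k X = S.tmap (rot S.al v) LinearMap.id X) {g : V ≃ₗ[F] V} (hg : g ∈ M) :
    ∃ (f : B) (z : V ≃ₗ[F] V), z ∈ M ∧ z ^ p = 1 ∧ z ≠ 1 ∧ f ≠ 0 ∧ S.be f f = 0 ∧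
      z * (g * k * g⁻¹) = g * k * g⁻¹ * z ∧ ∀ a, z (g (S.tp a f)) = g (S.tp a f) := by
  obtain ⟨f, u, t, hu, hue, hup, hu1, hf0, hff, htf, -⟩ := H.exists_unipotent p
  have huk : u * k = k * u := LinearEquiv.ext fun X => by
    simp only [LinearEquiv.mul_apply, hue, hk, ← LinearMap.comp_apply (f := S.tmap _ _), S.tmap_comp,
      LinearMap.id_comp, LinearMap.comp_id]
  refine ⟨f, g * u * g⁻¹, M.mul_mem (M.mul_mem hg hu) (M.inv_mem hg), ?_, fun h => hu1 ?_, hf0, hff, ?_, fun a => ?_⟩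
  · rw [conj_pow, hup, mul_one, mul_inv_cancel]
  · rwa [conj_eq_one_iff] at h
  · calc g * u * g⁻¹ * (g * k * g⁻¹) = g * (u * k) * g⁻¹ := by group
      _ = _ := by rw [huk]; group
  · rw [LinearEquiv.mul_apply, LinearEquiv.mul_apply, show g⁻¹ (g (S.tp a f)) = S.tp a f from g.symm_apply_apply _,
      hue, S.tmap_tp, htf, LinearMap.id_apply]

/-- Conjugating `rot v ⊗ 1` to some `rot v' ⊗ 1`. -/
lemma isT_of_conj (H : Hyp3 S M) (hno : NoRoot S M) {v v' : A} (hv : S.al v v ≠ 0) (hv' : S.al v' v' ≠ 0)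
    {k : V ≃ₗ[F] V} (hk : ∀ X, k X = S.tmap (rot S.al v) LinearMap.id X) {g : V ≃ₗ[F] V} (hg : g ∈ M)
    (hj : ∀ X, (g * k * g⁻¹) X = S.tmap (rot S.al v') LinearMap.id X) : S.IsT g := by
  obtain ⟨p, hpc⟩ := CharP.exists F
  have := Fintype.ofFinite F
  have : Fact p.Prime := ⟨CharP.char_is_prime F p⟩
  obtain ⟨f, z, hz, hzp, hz1, hf0, hff, hzc, hzf⟩ := H.exists_transported p hk hg
  obtain ⟨f₁, hf₁0, hf₁f, -, hfix⟩ := H.fix_of_comm hno hv' hj hz hzc hzp hz1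
  obtain ⟨f', hF⟩ := exists_frame S.sym_be H.wB hff hf0
  obtain ⟨f₁', hF₁⟩ := exists_frame S.sym_be H.wB hf₁f hf₁0
  exact S.isT_of_swap (H.toSq.swap.isT_of_frames (H.toSq.noRoot_swap hno) hF hF₁ hg fun a => hfix _ (hzf a))

/-- Conjugating `rot v ⊗ 1` to some `1 ⊗ rot w`. -/
lemma mem_of_conj_swap (H : Hyp3 S M) (hno : NoRoot S M) {v : A} (hv : S.al v v ≠ 0) {w : B} (hw : S.be w w ≠ 0)
    {k : V ≃ₗ[F] V} (hk : ∀ X, k X = S.tmap (rot S.al v) LinearMap.id X) {g : V ≃ₗ[F] V} (hg : g ∈ M)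
    (hj : ∀ X, (g * k * g⁻¹) X = S.tmap LinearMap.id (rot S.be w) X) : g ∈ hsub S M := by
  obtain ⟨p, hpc⟩ := CharP.exists F
  have := Fintype.ofFinite F
  have : Fact p.Prime := ⟨CharP.char_is_prime F p⟩
  obtain ⟨f, z, hz, hzp, hz1, hf0, hff, hzc, hzf⟩ := H.exists_transported p hk hg
  obtain ⟨e, he0, hee, -, hfix⟩ := H.swap.fix_of_comm (H.toSq.noRoot_swap hno) (v := w) hw (k := g * k * g⁻¹)
    (fun X => by rw [hj, S.tmap_swap]; rfl) hz hzc hzp hz1
  obtain ⟨τ, hτ, x, y, hτe⟩ := H.tau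
  have hee' : S.al e e = 0 := hee
  obtain ⟨f', hF⟩ := exists_frame S.sym_be H.wB hff hf0
  have hye : S.be (y e) (y e) = 0 := by
    obtain ⟨-, b, hb⟩ := H.exists_norm_one
    have h2 : ∀ b', S.al (x b) (x b') * S.be (y e) (y e) = 0 := fun b' => by
      rw [← S.form_tp, ← hτe, ← hτe, H.iso τ hτ, S.form_tp]
      simp [hee']
    by_contra hne
    have hx0 : x b = 0 := S.al_nd _ fun a => by
      obtain ⟨b', rfl⟩ := x.surjective a
      exact (mul_eq_zero.1 (h2 b')).resolve_right hne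
    have hb0 : b = 0 := x.injective (by rw [hx0, map_zero])
    rw [hb0] at hb
    simp at hb
  have hye0 : y e ≠ 0 := fun h => he0 (y.injective (by rw [h, map_zero]))
  obtain ⟨d', hd⟩ := exists_frame S.sym_be H.wB hye hye0
  have hT : S.IsT (τ * g) := S.isT_of_swap (H.toSq.swap.isT_of_frames (H.toSq.noRoot_swap hno) hF hd
    (M.mul_mem hτ hg) fun a => by
      obtain ⟨b, hb⟩ := hfix _ (hzf a)
      refine ⟨x b, ?_⟩
      rw [LinearEquiv.mul_apply, S.swap_tp, hb]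
      exact hτe e b)
  have h1 : τ * g ∈ hsub S M := ⟨M.mul_mem hτ hg, Or.inl hT⟩
  have h3 := (hsub S M).mul_mem ((hsub S M).inv_mem (⟨hτ, Or.inr ⟨x, y, hτe⟩⟩ : τ ∈ hsub S M)) h1
  rwa [inv_mul_cancel_left] at h3

/-- An exchanging involution centralises two unipotent elements with a common fixed vector. -/
lemma anti_pair (H : Hyp3 S M) (p : ℕ) [Fact p.Prime] [CharP F p] {j : V ≃ₗ[F] V} (hj : j ∈ M) (hjj : j * j = 1)
    (hjA : IsA S j) :
    ∃ z z' : V ≃ₗ[F] V, z ∈ M ∧ z' ∈ M ∧ z ^ p = 1 ∧ z' ^ p = 1 ∧ z * j = j * z ∧ z' * j = j * z' ∧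
      z ≠ 1 ∧ z' ≠ 1 ∧ (∃ c, c ≠ 0 ∧ z c = c ∧ z' c = c) ∧ ∃ X₀, z X₀ = X₀ ∧ z' X₀ ≠ X₀ := by
  classical
  obtain ⟨x, y, hxy⟩ := hjA
  obtain ⟨⟨a₀, ha₀⟩, b₀, hb₀⟩ := H.exists_norm_one
  have h2 : S.tmap ((x : B →ₗ[F] A) ∘ₗ (y : A →ₗ[F] B)) ((y : A →ₗ[F] B) ∘ₗ (x : B →ₗ[F] A)) = LinearMap.id :=
    S.hom_ext fun a b => by
      rw [S.tmap_tp]
      simp only [LinearMap.comp_apply, LinearEquiv.coe_coe]
      rw [← hxy, ← hxy]
      exact LinearEquiv.congr_fun hjj (S.tp a b)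
  obtain ⟨κ, hκ, -⟩ := S.tmap_eq_one H.posA H.posB h2
  set μ := S.be (y a₀) (y a₀)
  have hsim : ∀ b b', S.al (x b) (x b') * μ = S.be b b' := fun b b' => by
    have := H.iso j hj (S.tp a₀ b) (S.tp a₀ b')
    rwa [hxy, hxy, S.form_tp, S.form_tp, ha₀, one_mul] at this
  have hμ : μ ≠ 0 := fun h0 => by
    have := hsim b₀ b₀
    rw [h0, mul_zero, hb₀] at this
    exact zero_ne_one this
  obtain ⟨e, -, he0, hee⟩ := S.sym_al.exists_iso_in (B := ⊤)
    (fun x _ hx => S.al_nd x fun y => hx y trivial) (by rw [finrank_top]; exact H.dA)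
  obtain ⟨e', hf⟩ := exists_frame S.sym_al H.wA hee he0
  obtain ⟨m, hm, hm0⟩ := hf.exists_mid_ne S.sym_al H.dA
  obtain ⟨hem, he'm⟩ := mem_mid.1 hm
  have hmm : S.al m m ≠ 0 := fun h0 => hm0 (hf.aniso' hm h0)
  have hm' : m ∈ mid S.al e' e := mem_mid.2 ⟨he'm, hem⟩
  obtain ⟨c, hc⟩ : ∃ c : V, ∀ a b, S.form c (S.tp a b) = S.al (x b) a := by
    refine ⟨∑ i, S.tp (x (Module.finBasis F B i)) (S.be.dualBasis S.be_nondeg (Module.finBasis F B) i), fun a b => ?_⟩
    rw [map_sum, LinearMap.sum_apply]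
    simp only [S.form_tp]
    conv_rhs => rw [← (Module.finBasis F B).sum_repr b, map_sum, map_sum, LinearMap.sum_apply]
    refine Finset.sum_congr rfl fun i _ => ?_
    rw [map_smul, map_smul, LinearMap.smul_apply, smul_eq_mul, mul_comm]
    congr 1
    conv_lhs => rw [← (Module.finBasis F B).sum_repr b, map_sum]
    simp [LinearMap.BilinForm.apply_dualBasis_left, Finset.sum_ite_eq]
  have hc0 : c ≠ 0 := fun h0 => by
    have := hc (x b₀) b₀
    rw [h0, map_zero, LinearMap.zero_apply] at this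
    have h3 := hsim b₀ b₀
    rw [← this, zero_mul, hb₀] at h3
    exact zero_ne_one h3
  have key : ∀ d d' : A, Frame S.al d d' → m ∈ mid S.al d d' → ∃ z ∈ M, z ^ p = 1 ∧ z * j = j * z ∧ z c = c ∧
      z (S.tp d (x.symm d)) = S.tp d (x.symm d) ∧ z (S.tp d' (x.symm d')) ≠ S.tp d' (x.symm d') := by
    intro d d' hd hmd
    obtain ⟨hdm, -⟩ := mem_mid.1 hmd
    have hdd : S.be (x.symm d) (x.symm d) = 0 := by
      rw [← hsim, x.apply_symm_apply, hd.left, zero_mul]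
    have hdy : S.be (x.symm d) (μ⁻¹ • x.symm m) = 0 := by
      rw [map_smul, ← hsim, x.apply_symm_apply, x.apply_symm_apply, hdm, zero_mul, smul_zero]
    obtain ⟨z, hz, hze⟩ := InM.comp (H.toSq.eichA_mem hd.left hdm) (H.toSq.eichB_mem hdd hdy)
    rw [S.tmap_comp, LinearMap.comp_id, LinearMap.id_comp] at hze
    set s := eich S.al d m
    set t := eich S.be (x.symm d) (μ⁻¹ • x.symm m)
    have hsx : ∀ b, x (t b) = s (x b) := fun b => by
      simp only [s, t, eich_apply, map_add, map_sub, map_smul, LinearEquiv.apply_symm_apply, LinearMap.smul_apply,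
        smul_eq_mul, ← hsim]
      match_scalars <;> field_simp
    have hty : ∀ a, t (y a) = y (s a) := fun a => x.injective (by
      rw [hsx]
      have h4 := hκ a
      have h5 := hκ (s a)
      simp only [LinearMap.comp_apply, LinearEquiv.coe_coe] at h4 h5
      rw [h4, h5, map_smul])
    refine ⟨z, hz, LinearEquiv.ext fun X => ?_, LinearEquiv.ext fun X => ?_, ?_, ?_, fun hfx => ?_⟩
    · rw [coe_pow_apply, show (z : V →ₗ[F] V) = S.tmap s t from LinearMap.ext hze, S.tmap_pow,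
        eich_pow_char S.sym_al p hd.left hdm, eich_pow_char S.sym_be p hdd hdy]
      exact LinearMap.congr_fun S.tmap_id X
    · rw [LinearEquiv.mul_apply, LinearEquiv.mul_apply, hze, hze]
      exact LinearMap.congr_fun (S.hom_ext (f := S.tmap s t ∘ₗ j.toLinearMap) (g := j.toLinearMap ∘ₗ S.tmap s t)
        fun a b => by simp [hxy, hsx, hty]) X
    · refine sub_eq_zero.1 (S.form_ext _ fun a b => ?_)
      obtain ⟨a, rfl⟩ := LinearMap.injective_iff_surjective.1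
        (S.sym_al.iso_injective (eich_isIso S.sym_al hd.left hdm)) a
      obtain ⟨b, rfl⟩ := LinearMap.injective_iff_surjective.1
        (S.sym_be.iso_injective (eich_isIso S.sym_be hdd hdy)) b
      rw [map_sub, LinearMap.sub_apply, sub_eq_zero, hc, hsx, eich_isIso S.sym_al hd.left hdm, ← S.tmap_tp,
        ← hze, H.iso z hz, hc]
    · rw [hze, S.tmap_tp, eich_left S.sym_al hd hmd, show t (x.symm d) = x.symm d from x.injective (by
        rw [hsx, x.apply_symm_apply]; exact eich_left S.sym_al hd hmd)]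
    · rw [hze, S.tmap_tp] at hfx
      have h6 := congrArg (S.pi m) hfx
      have hmd' : S.al d' m = 0 := (mem_mid.1 hmd).2
      have h7 : S.al (s d') m = -S.al m m := by
        simp [s, eich_right S.sym_al hd hmd, hdm, hmd']
      rw [S.pi_tp, S.pi_tp, hmd', zero_smul, h7] at h6
      have h8 := (smul_eq_zero.1 h6).resolve_left (neg_ne_zero.2 hmm)
      have h9 : s d' = 0 := by
        rw [← x.apply_symm_apply d', ← hsx, h8, map_zero]
      rw [h9, map_zero, LinearMap.zero_apply] at h7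
      exact hmm (neg_eq_zero.1 h7.symm)
  obtain ⟨z, hz, hzp, hzj, hzc, hz0, hz'⟩ := key e e' hf hm
  obtain ⟨z', hz'', hzp', hzj', hzc', -, hz0'⟩ := key e' e (hf.swap S.sym_al) hm'
  exact ⟨z, z', hz, hz'', hzp, hzp', hzj, hzj', fun h => hz' (by rw [h]; rfl), fun h => hz0' (by rw [h]; rfl),
    ⟨c, hc0, hzc, hzc'⟩, _, hz0, hz0'⟩

/-- No exchanging involution is conjugate to a pure one. -/
theorem not_isA_conj (H : Hyp3 S M) (hno : NoRoot S M) {v : A} (hv : S.al v v ≠ 0) {k : V ≃ₗ[F] V} (hk' : k ∈ M)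
    (hk : ∀ X, k X = S.tmap (rot S.al v) LinearMap.id X) {g : V ≃ₗ[F] V} (hg : g ∈ M) :
    ¬ IsA S (g * k * g⁻¹) := by
  obtain ⟨p, hpc⟩ := CharP.exists F
  have := Fintype.ofFinite F
  have : Fact p.Prime := ⟨CharP.char_is_prime F p⟩
  intro hA
  have hkk : k * k = 1 := LinearEquiv.ext fun X => by
    rw [LinearEquiv.mul_apply, hk, hk, ← LinearMap.comp_apply, S.tmap_comp, LinearMap.id_comp,
      show rot S.al v ∘ₗ rot S.al v = LinearMap.id from LinearMap.ext (rot_rot S.sym_al v), S.tmap_id]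
    rfl
  obtain ⟨z, z', hz, hz', hzp, hzp', hzj, hzj', hz1, hz1', ⟨c, hc0, hzc, hzc'⟩, X₀, hX, hX'⟩ :=
    H.anti_pair p (M.mul_mem (M.mul_mem hg hk') (M.inv_mem hg))
      (by rw [show g * k * g⁻¹ * (g * k * g⁻¹) = g * (k * k) * g⁻¹ by group, hkk, mul_one, mul_inv_cancel]) hA
  have hpull : ∀ {z}, z ∈ M → z * (g * k * g⁻¹) = g * k * g⁻¹ * z → z ^ p = 1 → z ≠ 1 →
      ∃ f, f ≠ 0 ∧ (∀ a, z (g (S.tp a f)) = g (S.tp a f)) ∧ ∀ X, z X = X → ∃ a, X = g (S.tp a f) := by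
    intro z hz hzj hzp hz1
    have hc : g⁻¹ * z * g * k = k * (g⁻¹ * z * g) := by
      calc g⁻¹ * z * g * k = g⁻¹ * (z * (g * k * g⁻¹)) * g := by group
        _ = _ := by rw [hzj]; group
    obtain ⟨f, hf0, -, hf, hfix⟩ := H.fix_of_comm hno hv hk (M.mul_mem (M.mul_mem (M.inv_mem hg) hz) hg) hc
      (p := p) (by rw [show g⁻¹ * z * g = g⁻¹ * z * g⁻¹⁻¹ by rw [inv_inv], conj_pow, hzp, mul_one, mul_inv_cancel])
      (fun h => hz1 (by rw [show z = g * (g⁻¹ * z * g) * g⁻¹ by group, h, mul_one, mul_inv_cancel]))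
    refine ⟨f, hf0, fun a => ?_, fun X hX => ?_⟩
    · have h1 := congrArg g (hf a)
      rw [LinearEquiv.mul_apply, LinearEquiv.mul_apply] at h1
      rwa [show g (g⁻¹ (z (g (S.tp a f)))) = z (g (S.tp a f)) from g.apply_symm_apply _] at h1
    · obtain ⟨a, ha⟩ := hfix (g⁻¹ X) (by
        rw [LinearEquiv.mul_apply, LinearEquiv.mul_apply, show g (g⁻¹ X) = X from g.apply_symm_apply X, hX])
      exact ⟨a, by rw [← ha]; exact (g.apply_symm_apply X).symm⟩
  obtain ⟨f, hf0, -, hfix⟩ := hpull hz hzj hzp hz1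
  obtain ⟨f', hf0', hf', hfix'⟩ := hpull hz' hzj' hzp' hz1'
  obtain ⟨a, ha⟩ := hfix c hzc
  obtain ⟨a', ha'⟩ := hfix' c hzc'
  obtain ⟨a₁, ha₁⟩ := hfix X₀ hX
  have h3 : S.tp a f = S.tp a' f' := g.injective (ha.symm.trans ha')
  have ha0 : a' ≠ 0 := fun h => hc0 (by rw [ha', h, map_zero, LinearMap.zero_apply, map_zero])
  obtain ⟨r, hr⟩ : ∃ r, S.al a' r ≠ 0 := by
    by_contra! h
    exact ha0 (S.al_nd a' h)
  have h4 := congrArg (S.pi r) h3
  rw [S.pi_tp, S.pi_tp] at h4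
  have hne : S.al a r ≠ 0 := fun h0 => hf0' ((smul_eq_zero.1 (by rw [← h4, h0, zero_smul])).resolve_left hr)
  refine hX' ?_
  rw [ha₁, show f = (S.al a r)⁻¹ • S.al a' r • f' by rw [← h4, inv_smul_smul₀ hne], map_smul, map_smul, map_smul,
    map_smul, map_smul, map_smul, hf']

/-- An element mapping a pure involution into the stabiliser lies in it. -/
theorem mem_hsub_of_conj (H : Hyp3 S M) (hno : NoRoot S M) {v : A} (hv : S.al v v ≠ 0) {k : V ≃ₗ[F] V}
    (hk' : k ∈ M) (hk : ∀ X, k X = S.tmap (rot S.al v) LinearMap.id X) {g : V ≃ₗ[F] V} (hg : g ∈ M)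
    (hj : g * k * g⁻¹ ∈ hsub S M) : g ∈ hsub S M := by
  obtain ⟨hjM, hT | hA⟩ := hj
  swap
  · exact absurd hA (H.not_isA_conj hno hv hk' hk hg)
  have h3 : nfix (g * k * g⁻¹).toLinearMap = 3 := by
    rw [← nfix_eq_of_conj (f := k.toLinearMap) (g := g) (fun X => ?_),
      show k.toLinearMap = S.tmap (rot S.al v) LinearMap.id from LinearMap.ext hk, H.nfix_pure hv]
    show g (k X) = g (k (g⁻¹ (g X)))
    rw [show g⁻¹ (g X) = X from g.symm_apply_apply X]
  have hkk : k * k = 1 := LinearEquiv.ext fun X => by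
    rw [LinearEquiv.mul_apply, hk, hk, ← LinearMap.comp_apply, S.tmap_comp, LinearMap.id_comp,
      show rot S.al v ∘ₗ rot S.al v = LinearMap.id from LinearMap.ext (rot_rot S.sym_al v), S.tmap_id]
    rfl
  have hk1 : k ≠ 1 := fun h => rot_ne_id S.sym_al H.three hv (H.tmap_inj (H.isSO_rotA hv) isSO_one isSO_one
    isSO_one (by rw [S.tmap_id]; exact LinearMap.ext fun X => by rw [← hk, h]; rfl)).1
  rcases H.invol_cases hjM hT
      (by rw [show g * k * g⁻¹ * (g * k * g⁻¹) = g * (k * k) * g⁻¹ by group, hkk, mul_one, mul_inv_cancel])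
      (fun h => hk1 (conj_eq_one_iff.1 h)) with ⟨v', hv', he⟩ | ⟨w, hw, he⟩ | ⟨v', w, hv', hw, he⟩
  · exact ⟨hg, Or.inl (H.isT_of_conj hno hv hv' hk hg he)⟩
  · exact H.mem_of_conj_swap hno hv hw hk hg he
  · exfalso
    rw [show (g * k * g⁻¹).toLinearMap = S.tmap (rot S.al v') (rot S.be w) from LinearMap.ext he,
      H.nfix_mixed hv' hw] at h3
    omega

end Hyp3

end CfsgLib.OTensorSq17
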