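import Cfsg.Agent.OTensorSq17.Central

/-!
Without root maps the group preserves the decomposition.
-/

set_option autoImplicit false
set_option linter.unusedSectionVars false
set_option linter.unusedSimpArgs false
set_option linter.unusedVariables false

namespace CfsgLib.OTensorSq17

open Module CfsgLib.SpO90 CfsgLib.OTensor90

variable {F A B V : Type*} [Field F] [Finite F] [AddCommGroup A] [Module F A] [AddCommGroup B]
  [Module F B] [AddCommGroup V] [Module F V] [FiniteDimensional F A] [FiniteDimensional F B]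
  [FiniteDimensional F V]

namespace Hyp3

variable {S : Setting F A B V} {M : Subgroup (V ≃ₗ[F] V)}

/-- A pure involution of the group commuting with one of the group and one outside has the axis of the first. -/
lemma rot_eq_of_pure (H : Hyp3 S M) {v v' a : A} (hv : S.al v v ≠ 0) (hv' : S.al v' v' ≠ 0) (ha : S.al a a ≠ 0)
    (hvv' : S.al v v' = 0) (hnv : ¬ InM M (S.tmap (rot S.al v) LinearMap.id))
    (hv'M : InM M (S.tmap (rot S.al v') LinearMap.id)) (haM : InM M (S.tmap (rot S.al a) LinearMap.id))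
    (h1 : rot S.al a ∘ₗ rot S.al v = rot S.al v ∘ₗ rot S.al a)
    (h2 : rot S.al a ∘ₗ rot S.al v' = rot S.al v' ∘ₗ rot S.al a) : rot S.al a = rot S.al v' := by
  rcases rot_commute_cases S.sym_al ha hv' h2 with h | hav'
  · exact h
  rcases rot_commute_cases S.sym_al ha hv h1 with h | hav
  · exact absurd (h ▸ haM) hnv
  refine absurd ?_ hnv
  have hv'v : S.al v' v = 0 := by rw [S.al_symm]; exact hvv'
  have h3 := haM.comp hv'M
  rwa [S.tmap_comp, LinearMap.id_comp,
    rot_comp_rot S.sym_al H.three ha hv' hv hav' hav hv'v] at h3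

/-- A tensor involution conjugate to a mixed one is mixed. -/
lemma mixed_cases (H : Hyp3 S M) {v : A} (hv : S.al v v ≠ 0) {w : B} (hw : S.be w w ≠ 0) {i : V ≃ₗ[F] V}
    (hi : ∀ X, i X = S.tmap (rot S.al v) (rot S.be w) X) (g : V ≃ₗ[F] V) (hgM : g * i * g⁻¹ ∈ M)
    (hT : S.IsT (g * i * g⁻¹)) :
    ∃ a b, S.al a a ≠ 0 ∧ S.be b b ≠ 0 ∧ ∀ X, (g * i * g⁻¹) X = S.tmap (rot S.al a) (rot S.be b) X := by
  have hii := H.mul_self_of_tmap hi (rot_rot S.sym_al v) (rot_rot S.sym_be w)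
  have hi1 : i ≠ 1 := fun h => rot_ne_id S.sym_al H.three hv (H.eq_of_tmap hi
    (fun X => by rw [S.tmap_id]; rfl) (H.isSO_rotA hv) (H.isSO_rotB hw) isSO_one isSO_one h).1
  have h5 : nfix (g * i * g⁻¹).toLinearMap = 5 := by
    rw [nfix_conj, show i.toLinearMap = S.tmap (rot S.al v) (rot S.be w) from LinearMap.ext hi, H.nfix_mixed hv hw]
  rcases H.invol_cases hgM hT
      (by rw [show g * i * g⁻¹ * (g * i * g⁻¹) = g * (i * i) * g⁻¹ by group, hii, mul_one, mul_inv_cancel])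
      (fun h => hi1 (conj_eq_one_iff.1 h)) with ⟨a, ha, he⟩ | ⟨b, hb, he⟩ | h
  · rw [show (g * i * g⁻¹).toLinearMap = S.tmap (rot S.al a) LinearMap.id from LinearMap.ext he,
      H.nfix_pure ha] at h5
    omega
  · rw [show (g * i * g⁻¹).toLinearMap = S.swap.tmap (rot S.be b) LinearMap.id from
        LinearMap.ext fun X => by rw [S.tmap_swap]; exact he X] at h5
    have h3 := H.swap.nfix_pure (v := b) hb
    rw [show rot S.swap.al b = rot S.be b from rfl] at h3
    omega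
  · exact h

lemma commute_factors (H : Hyp3 S M) {g h : V ≃ₗ[F] V} {s s' : A →ₗ[F] A} {t t' : B →ₗ[F] B}
    (hg : ∀ X, g X = S.tmap s t X) (hh : ∀ X, h X = S.tmap s' t' X) (hs : IsSO S.al s) (ht : IsSO S.be t)
    (hs' : IsSO S.al s') (ht' : IsSO S.be t') (e : g * h = h * g) : s ∘ₗ s' = s' ∘ₗ s ∧ t ∘ₗ t' = t' ∘ₗ t :=
  H.eq_of_tmap (mul_apply_tmap hg hh) (mul_apply_tmap hh hg) (hs.comp hs') (ht.comp ht') (hs'.comp hs)
    (ht'.comp ht) e

set_option maxHeartbeats 1000000 in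
/-- The centraliser of a mixed involution. -/
theorem centralizer_mixed (H : Hyp3 S M) (hno : NoRoot S M) {v : A} (hv : S.al v v ≠ 0) {w : B}
    (hw : S.be w w ≠ 0) {i : V ≃ₗ[F] V} (hi' : i ∈ M) (hi : ∀ X, i X = S.tmap (rot S.al v) (rot S.be w) X)
    {x : V ≃ₗ[F] V} (hx : x ∈ M) (hxi : x * i = i * x) : x ∈ hsub S M := by
  classical
  by_cases hvM : InM M (S.tmap (rot S.al v) LinearMap.id)
  · obtain ⟨k, hk', hk⟩ := hvM
    exact H.centralizer_split hno hv hw hi' hk' hi hk hx hxi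
  have hwM : ¬ InM M (S.tmap LinearMap.id (rot S.be w)) := fun ⟨k, hk', hk⟩ => hvM
    ⟨i * k, M.mul_mem hi' hk', fun X => by
      rw [mul_apply_tmap hi hk, LinearMap.comp_id,
        show rot S.be w ∘ₗ rot S.be w = LinearMap.id from LinearMap.ext (rot_rot S.sym_be w)]⟩
  have : Finite V := Module.finite_of_finite F
  have : Finite (V ≃ₗ[F] V) := Finite.of_injective (fun f : V ≃ₗ[F] V => (f : V → V)) DFunLike.coe_injective
  obtain ⟨v', hv', hvv', k₁, hk₁', hk₁⟩ := H.exists_pure_perp hv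
  obtain ⟨w', hw', hww', k₂, hk₂', hk₂₀⟩ := H.swap.exists_pure_perp (v := w) hw
  have hk₂ : ∀ X, k₂ X = S.tmap LinearMap.id (rot S.be w') X := fun X => by rw [hk₂₀, S.tmap_swap]; rfl
  have hw'' : S.be w' w' ≠ 0 := hw'
  have hww'' : S.be w w' = 0 := hww'
  have hr := H.isSO_rotA hv
  have hr₁ := H.isSO_rotA hv'
  have hrw := H.isSO_rotB hw
  have hr₂ := H.isSO_rotB hw''
  have hv'v : S.al v' v = 0 := by rw [S.al_symm]; exact hvv'
  have hw'w : S.be w' w = 0 := by rw [S.be_symm]; exact hww''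
  have hcomA : rot S.al v ∘ₗ rot S.al v' = rot S.al v' ∘ₗ rot S.al v := LinearMap.ext fun z => by
    simp only [LinearMap.comp_apply, rot_apply, map_sub, map_smul, smul_eq_mul, hvv', hv'v]
    match_scalars <;> ring
  have hcomB : rot S.be w ∘ₗ rot S.be w' = rot S.be w' ∘ₗ rot S.be w := LinearMap.ext fun z => by
    simp only [LinearMap.comp_apply, rot_apply, map_sub, map_smul, smul_eq_mul, hww'', hw'w]
    match_scalars <;> ring
  set s := k₁ * k₂ with hsdef
  have hs' : s ∈ M := M.mul_mem hk₁' hk₂'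
  have hs : ∀ X, s X = S.tmap (rot S.al v') (rot S.be w') X := fun X => by
    rw [mul_apply_tmap hk₁ hk₂, LinearMap.id_comp, LinearMap.comp_id]
  have hCs : ∀ y ∈ M, y * s = s * y → y ∈ hsub S M := fun y hy hc =>
    H.centralizer_split hno hv' hw'' hs' hk₁' hs hk₁ hy hc
  have hk₁i : k₁ * i = i * k₁ := equiv_ext_tmap (mul_apply_tmap hk₁ hi) fun X => by
    rw [mul_apply_tmap hi hk₁, hcomA, LinearMap.comp_id, LinearMap.id_comp]
  have hk₂i : k₂ * i = i * k₂ := equiv_ext_tmap (mul_apply_tmap hk₂ hi) fun X => by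
    rw [mul_apply_tmap hi hk₂, hcomB, LinearMap.comp_id, LinearMap.id_comp]
  have hk₁₂ : k₁ * k₂ = k₂ * k₁ := equiv_ext_tmap (mul_apply_tmap hk₁ hk₂) fun X => by
    rw [mul_apply_tmap hk₂ hk₁, LinearMap.comp_id, LinearMap.id_comp, LinearMap.comp_id, LinearMap.id_comp]
  have hk₁k₁ := H.mul_self_of_tmap hk₁ (rot_rot S.sym_al v') (fun _ => rfl)
  have hss := H.mul_self_of_tmap hs (rot_rot S.sym_al v') (rot_rot S.sym_be w')
  have hsi : s * i = i * s := by rw [hsdef, mul_assoc, hk₂i, ← mul_assoc, hk₁i, mul_assoc]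
  set C : Subgroup (V ≃ₗ[F] V) := M ⊓ Subgroup.centralizer {i} with hC
  have hmemC : ∀ {y}, y ∈ M → y * i = i * y → y ∈ C := fun hy hc =>
    ⟨hy, Subgroup.mem_centralizer_singleton_iff.2 hc⟩
  have hCi : ∀ y : C, (y : V ≃ₗ[F] V) * i = i * y := fun y => Subgroup.mem_centralizer_singleton_iff.1 y.2.2
  have hK : (hsub S M).subgroupOf C = ⊤ := by
    refine eq_top_of_isolated_four (t := (⟨s, hmemC hs' hsi⟩ : C)) (e := ⟨k₁, hmemC hk₁' hk₁i⟩) _ ?_ ?_ ?_ ?_ ?_
      ?_ ?_ ?_ ?_ ?_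
    · exact Subtype.ext hss
    · intro h
      exact rot_ne_id S.sym_al H.three hv' (H.eq_of_tmap hs (fun X => by rw [S.tmap_id]; rfl) hr₁ hr₂ isSO_one
        isSO_one (congrArg Subtype.val h)).1
    · exact Subtype.ext hk₁k₁
    · intro h
      exact rot_ne_id S.sym_al H.three hv' (H.eq_of_tmap hk₁ (fun X => by rw [S.tmap_id]; rfl) hr₁ isSO_one isSO_one
        isSO_one (congrArg Subtype.val h)).1
    · intro h
      exact rot_ne_id S.sym_be H.three' hw'' (H.eq_of_tmap hs hk₁ hr₁ hr₂ hr₁ isSO_one (congrArg Subtype.val h)).2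
    · refine Subtype.ext ?_
      show k₁ * k₂ * k₁ = k₁ * (k₁ * k₂)
      rw [mul_assoc, ← hk₁₂]
    · -- isolation
      rintro ⟨y, hy⟩ hc
      have hyM : y ∈ M := hy.1
      have hyi : y * i = i * y := hCi ⟨y, hy⟩
      have hc' : y * s * y⁻¹ * s = s * (y * s * y⁻¹) := (congrArg Subtype.val hc).symm
      have hjM : y * s * y⁻¹ ∈ M := M.mul_mem (M.mul_mem hyM hs') (M.inv_mem hyM)
      have hT : S.IsT (y * s * y⁻¹) :=
        (hCs _ hjM hc').2.resolve_right (H.not_isA_conj_mixed hv' hw'' hs' hs hCs hyM)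
      obtain ⟨a, b, ha, hb, he⟩ := H.mixed_cases hv' hw'' hs y hjM hT
      have hra := H.isSO_rotA ha
      have hrb := H.isSO_rotB hb
      obtain ⟨hav', hbw'⟩ := H.commute_factors he hs hra hrb hr₁ hr₂ hc'
      have hji : y * s * y⁻¹ * i = i * (y * s * y⁻¹) := by
        have h1 : y⁻¹ * i = i * y⁻¹ := by
          rw [inv_mul_eq_iff_eq_mul, ← mul_assoc, hyi, mul_inv_cancel_right]
        rw [mul_assoc, h1, ← mul_assoc, mul_assoc y, hsi, ← mul_assoc y, hyi]
        simp only [mul_assoc]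
      obtain ⟨hav, hbw⟩ := H.commute_factors he hi hra hrb hr hrw hji
      have hck : y * s * y⁻¹ * k₁ = k₁ * (y * s * y⁻¹) := equiv_ext_tmap (mul_apply_tmap he hk₁) fun X => by
        rw [mul_apply_tmap hk₁ he, LinearMap.comp_id, LinearMap.id_comp, hav']
      have hyH : y ∈ hsub S M := by
        have h1 := conj_mem_centralizer hck
        have hM1 : y⁻¹ * k₁ * y ∈ M := M.mul_mem (M.mul_mem (M.inv_mem hyM) hk₁') hyM
        have h2 : y⁻¹ * k₁ * y⁻¹⁻¹ ∈ hsub S M := by rw [inv_inv]; exact hCs _ hM1 h1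
        exact inv_mem_iff.1 (H.mem_hsub_of_conj hno hv' hk₁' hk₁ (M.inv_mem hyM) h2)
      have hpM : ∀ {k}, k ∈ M → y * k * y⁻¹ ∈ M := fun hk => M.mul_mem (M.mul_mem hyM hk) (M.inv_mem hyM)
      have hk₁H := H.pure_mem_hsub hk₁' hr₁ isSO_one hk₁
      have hk₂H := H.pure_mem_hsub hk₂' isSO_one hr₂ hk₂
      have hconj : ∀ {k}, k ∈ hsub S M → y * k * y⁻¹ ∈ hsub S M := fun hk =>
        (hsub S M).mul_mem ((hsub S M).mul_mem hyH hk) ((hsub S M).inv_mem hyH)
      have hT₁ : S.IsT (y * k₁ * y⁻¹) := (hconj hk₁H).2.resolve_right (H.not_isA_conj hno hv' hk₁' hk₁ hyM)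
      have hno' := H.toSq.noRoot_swap hno
      have hsw : hsub S.swap M = hsub S M := hsub_swap S M
      have hT₂ : S.IsT (y * k₂ * y⁻¹) := (hconj hk₂H).2.resolve_right fun ⟨x, z, e⟩ =>
        H.swap.not_isA_conj hno' hw' hk₂' hk₂₀ hyM ⟨z, x, fun w a => e a w⟩
      have hp₁ := H.pure_cases hv' hk₁ y (hpM hk₁') hT₁
      have hp₂ := H.swap.pure_cases (v := w') hw' hk₂₀ y (hpM hk₂') (show S.swap.IsT _ from
        let ⟨x, z, e⟩ := hT₂; ⟨z, x, fun w a => e a w⟩)
      have hprod : y * k₁ * y⁻¹ * (y * k₂ * y⁻¹) = y * s * y⁻¹ := by rw [hsdef]; group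
      have hres : InM M (S.tmap (rot S.al a) LinearMap.id) ∧ InM M (S.tmap LinearMap.id (rot S.be b)) := by
        rcases hp₁ with ⟨c, hc₁, hce⟩ | ⟨c, hc₁, hce⟩ <;> rcases hp₂ with ⟨d, hd₁, hde₀⟩ | ⟨d, hd₁, hde₀⟩
        · have hde : ∀ X, (y * k₂ * y⁻¹) X = S.tmap LinearMap.id (rot S.be d) X := fun X => by
            rw [hde₀, S.tmap_swap]; rfl
          obtain ⟨e1, e2⟩ := H.eq_of_tmap (mul_apply_tmap hce hde) he ((H.isSO_rotA hc₁).comp isSO_one)
            (isSO_one.comp (H.isSO_rotB hd₁)) hra hrb hprod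
          rw [LinearMap.comp_id] at e1
          rw [LinearMap.id_comp] at e2
          exact ⟨⟨_, hpM hk₁', fun X => by rw [hce, e1]⟩, ⟨_, hpM hk₂', fun X => by rw [hde, e2]⟩⟩
        · exfalso
          have hde : ∀ X, (y * k₂ * y⁻¹) X = S.tmap (rot S.al d) LinearMap.id X := fun X => by
            rw [hde₀, S.tmap_swap]; rfl
          obtain ⟨-, e2⟩ := H.eq_of_tmap (mul_apply_tmap hce hde) he ((H.isSO_rotA hc₁).comp (H.isSO_rotA hd₁))
            (isSO_one.comp isSO_one) hra hrb hprod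
          rw [LinearMap.id_comp] at e2
          exact rot_ne_id S.sym_be H.three' hb e2.symm
        · exfalso
          have hde : ∀ X, (y * k₂ * y⁻¹) X = S.tmap LinearMap.id (rot S.be d) X := fun X => by
            rw [hde₀, S.tmap_swap]; rfl
          obtain ⟨e1, -⟩ := H.eq_of_tmap (mul_apply_tmap hce hde) he (isSO_one.comp isSO_one)
            ((H.isSO_rotB hc₁).comp (H.isSO_rotB hd₁)) hra hrb hprod
          rw [LinearMap.id_comp] at e1
          exact rot_ne_id S.sym_al H.three ha e1.symm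
        · have hde : ∀ X, (y * k₂ * y⁻¹) X = S.tmap (rot S.al d) LinearMap.id X := fun X => by
            rw [hde₀, S.tmap_swap]; rfl
          obtain ⟨e1, e2⟩ := H.eq_of_tmap (mul_apply_tmap hce hde) he (isSO_one.comp (H.isSO_rotA hd₁))
            ((H.isSO_rotB hc₁).comp isSO_one) hra hrb hprod
          rw [LinearMap.id_comp] at e1
          rw [LinearMap.comp_id] at e2
          exact ⟨⟨_, hpM hk₂', fun X => by rw [hde, e1]⟩, ⟨_, hpM hk₁', fun X => by rw [hce, e2]⟩⟩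
      have e1 := H.rot_eq_of_pure hv hv' ha hvv' hvM ⟨k₁, hk₁', hk₁⟩ hres.1 hav hav'
      have e2 := H.swap.rot_eq_of_pure (v := w) (v' := w') (a := b) hw hw' hb hww''
        (by rw [S.tmap_swap]; exact hwM) (by rw [S.tmap_swap]; exact ⟨k₂, hk₂', hk₂⟩)
        (by rw [S.tmap_swap]; exact hres.2) hbw hbw'
      refine Subtype.ext (equiv_ext_tmap he fun X => ?_)
      show s X = _
      rw [hs, e1, show rot S.be b = rot S.be w' from e2]
    · rintro ⟨y, hy⟩ hc
      exact hCs y hy.1 (congrArg Subtype.val hc)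
    · rintro ⟨y, hy⟩ hc
      exact ⟨hy.1, Or.inl (H.isT_of_comm hno hv' hk₁ hy.1 (congrArg Subtype.val hc))⟩
    · rintro ⟨y, hy⟩ hc
      have h1 : y * (s * k₁) = s * k₁ * y := congrArg Subtype.val hc
      have h2 : s * k₁ = k₂ := by rw [hsdef, hk₁₂, mul_assoc, hk₁k₁, mul_one]
      rw [h2] at h1
      exact ⟨hy.1, Or.inl (S.isT_of_swap (H.swap.isT_of_comm (H.toSq.noRoot_swap hno) (v := w') hw' hk₂₀ hy.1 h1))⟩
  have := hK ▸ Subgroup.mem_top (⟨x, hmemC hx hxi⟩ : C)
  exact this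

/-- The group preserves the decomposition. -/
theorem le_hsub (H : Hyp3 S M) (hno : NoRoot S M) : M ≤ hsub S M := by
  classical
  have : Finite V := Module.finite_of_finite F
  have : Finite (V ≃ₗ[F] V) := Finite.of_injective (fun f : V ≃ₗ[F] V => (f : V → V)) DFunLike.coe_injective
  intro g hg
  obtain ⟨⟨a₀, ha₀⟩, b₀, hb₀⟩ := H.exists_norm_one
  obtain ⟨v, hv, -, k, hk', hk⟩ := H.exists_pure_perp (v := a₀) (by rw [ha₀]; exact one_ne_zero)
  obtain ⟨w, hw, -, l, hl', hl₀⟩ := H.swap.exists_pure_perp (v := b₀) (show S.be b₀ b₀ ≠ 0 by rw [hb₀]; exact one_ne_zero)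
  have hw' : S.be w w ≠ 0 := hw
  have hl : ∀ X, l X = S.tmap LinearMap.id (rot S.be w) X := fun X => by rw [hl₀, S.tmap_swap]; rfl
  set i := k * l with hidef
  have hi' : i ∈ M := M.mul_mem hk' hl'
  have hi : ∀ X, i X = S.tmap (rot S.al v) (rot S.be w) X := fun X => by
    rw [mul_apply_tmap hk hl, LinearMap.id_comp, LinearMap.comp_id]
  have hkk := H.mul_self_of_tmap hk (rot_rot S.sym_al v) (fun _ => rfl)
  have hii := H.mul_self_of_tmap hi (rot_rot S.sym_al v) (rot_rot S.sym_be w)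
  have hki : k * i = i * k := equiv_ext_tmap (mul_apply_tmap hk hi) fun X => by
    rw [mul_apply_tmap hi hk, LinearMap.comp_id, LinearMap.id_comp]
  have hCi : ∀ x ∈ M, x * i = i * x → x ∈ hsub S M := fun x hx hc => H.centralizer_mixed hno hv hw' hi' hi hx hc
  set j := g * i * g⁻¹ with hj
  have hjM : j ∈ M := M.mul_mem (M.mul_mem hg hi') (M.inv_mem hg)
  have hjj : j * j = 1 := by
    rw [hj, show g * i * g⁻¹ * (g * i * g⁻¹) = g * (i * i) * g⁻¹ by group, hii, mul_one, mul_inv_cancel]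
  have hjH : j ∈ hsub S M := by
    rcases dihedral_cases hkk hjj with ⟨s, hs⟩ | ⟨c, ⟨m, hcm⟩, hcc, hc1, hck, hcj, -⟩
    · exfalso
      have h5 : nfix j.toLinearMap = 5 := by
        rw [hj, nfix_conj, show i.toLinearMap = S.tmap (rot S.al v) (rot S.be w) from LinearMap.ext hi,
          H.nfix_mixed hv hw']
      have h3 := nfix_eq_of_conj (f := k.toLinearMap) (f' := j.toLinearMap) (g := (k * j) ^ s)
        fun X => LinearEquiv.congr_fun hs X
      rw [h5, show k.toLinearMap = S.tmap (rot S.al v) LinearMap.id from LinearMap.ext hk, H.nfix_pure hv] at h3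
      omega
    · have hcM : c ∈ M := hcm ▸ M.pow_mem (M.mul_mem hk' hjM) m
      rcases H.invol_cases hcM (H.isT_of_comm hno hv hk hcM hck) hcc hc1 with
        ⟨a, ha, he⟩ | ⟨b, hb, he⟩ | ⟨a, b, ha, hb, he⟩
      · exact ⟨hjM, Or.inl (H.isT_of_comm hno ha he hjM hcj.symm)⟩
      · exact ⟨hjM, Or.inl (S.isT_of_swap (H.swap.isT_of_comm (H.toSq.noRoot_swap hno) (v := b) hb
          (fun X => by rw [he, S.tmap_swap]; rfl) hjM hcj.symm))⟩
      · exact H.centralizer_mixed hno ha hb hcM he hjM hcj.symm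
  have hjT : S.IsT j := hjH.2.resolve_right (H.not_isA_conj_mixed hv hw' hi' hi hCi hg)
  obtain ⟨a, b, ha, hb, he⟩ := H.mixed_cases hv hw' hi g hjM hjT
  refine H.mem_hsub_of_conj hno hv hk' hk hg (H.centralizer_mixed hno ha hb hjM he
    (M.mul_mem (M.mul_mem hg hk') (M.inv_mem hg)) ?_)
  calc g * k * g⁻¹ * j = g * (k * i) * g⁻¹ := by rw [hj]; group
    _ = j * (g * k * g⁻¹) := by rw [hki, hj]; group

end Hyp3

end CfsgLib.OTensorSq17
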