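import Cfsg.Agent.OTensorSq17.Basic
import Cfsg.Agent.OTensorSq17.Groups

/-!
Without root maps the fusion of the pure involutions is controlled by the stabiliser of the decomposition.
-/

set_option autoImplicit false
set_option linter.unusedSectionVars false
set_option linter.unusedSimpArgs false
set_option linter.unusedVariables false

namespace CfsgLib.OTensorSq17

open Module CfsgLib.SpO90 CfsgLib.OTensor90

variable {F A B V : Type*} [Field F] [Finite F] [AddCommGroup A] [Module F A] [AddCommGroup B]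
  [Module F B] [AddCommGroup V] [Module F V] [FiniteDimensional F A] [FiniteDimensional F B]
  [FiniteDimensional F V]

lemma tmap_sub_one_cube (S : Setting F A B V) {t : B →ₗ[F] B} (ht : ((t : Module.End F B) - 1) ^ 3 = 0) :
    ((S.tmap LinearMap.id t : Module.End F V) - 1) ^ 3 = 0 := by
  have e : (S.tmap LinearMap.id t : Module.End F V) - 1 = S.tmap LinearMap.id ((t : Module.End F B) - 1) :=
    S.hom_ext fun a w => by simp
  rw [e, S.tmap_pow, ht]
  exact S.hom_ext fun a w => by simp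

/-- The vectors fixed by `1 ⊗ t`. -/
lemma fix_right (S : Setting F A B V) {t : B →ₗ[F] B} (ht : IsIso S.be t) {f : B} (hf : f ≠ 0)
    (hfix : ∀ x, t x = x → ∃ c : F, x = c • f) {X : V} (hX : S.tmap LinearMap.id t X = X) :
    ∃ a, X = S.tp a f := by
  rw [← S.tmap_swap] at hX
  exact S.swap.fixed_mem ht hf hfix hX

namespace Hyp3

variable {S : Setting F A B V} {M : Subgroup (V ≃ₗ[F] V)}

/-- An element preserving the member of a non-singular vector is a tensor map. -/
theorem isT_of_aniso (H : Hyp3 S M) (hno : NoRoot S M) {v : A} (hv : S.al v v ≠ 0) {g : V ≃ₗ[F] V}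
    (hg : g ∈ M) (hE : ∀ y, ∃ z, g (S.tp v y) = S.tp v z) : S.IsT g := by
  classical
  obtain ⟨p, hpc⟩ := CharP.exists F
  have := Fintype.ofFinite F
  have : Fact p.Prime := ⟨CharP.char_is_prime F p⟩
  have : Finite V := Module.finite_of_finite F
  have : Finite (V ≃ₗ[F] V) := Finite.of_injective (fun f : V ≃ₗ[F] V => (f : V → V)) DFunLike.coe_injective
  obtain ⟨w, hw0, hwne⟩ : ∃ w, S.be w w = 0 ∧ w ≠ 0 := by
    obtain ⟨w, -, h1, h2⟩ := S.sym_be.exists_iso_in (B := ⊤)
      (fun x _ hx => S.be_nd x fun y => hx y trivial) (by rw [finrank_top]; exact H.dB)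
    exact ⟨w, h2, h1⟩
  obtain ⟨w', hw⟩ := exists_frame S.sym_be H.wB hw0 hwne
  have hno' := H.toSq.noRoot_swap hno
  have hmy : ∀ {y : B}, y ∈ mid S.be w w' → S.be w y = 0 := fun h => (mem_mid.1 h).1
  let U : Subgroup (V ≃ₗ[F] V) :=
    { carrier := {k | k ∈ M ∧ ∃ y ∈ mid S.be w w', ∀ X, k X = S.tmap LinearMap.id (eich S.be w y) X}
      one_mem' := ⟨M.one_mem, 0, Submodule.zero_mem _, fun X => by rw [eich_zero, S.tmap_id]; rfl⟩
      mul_mem' := by
        rintro k k' ⟨hk, y, hy, e⟩ ⟨hk', y', hy', e'⟩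
        refine ⟨M.mul_mem hk hk', y + y', Submodule.add_mem _ hy hy', fun X => ?_⟩
        rw [LinearEquiv.mul_apply, e, e', ← LinearMap.comp_apply, S.tmap_comp, LinearMap.id_comp,
          eich_comp S.sym_be hw0 (hmy hy) (hmy hy')]
      inv_mem' := by
        rintro k ⟨hk, y, hy, e⟩
        refine ⟨M.inv_mem hk, -y, Submodule.neg_mem _ hy, fun X => k.injective ?_⟩
        rw [show k (k⁻¹ X) = X from k.apply_symm_apply X, e, ← LinearMap.comp_apply, S.tmap_comp,
          LinearMap.id_comp, eich_comp S.sym_be hw0 (hmy hy) (hmy (Submodule.neg_mem _ hy)), add_neg_cancel, eich_zero,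
          S.tmap_id]
        rfl }
  let K : Subgroup (V ≃ₗ[F] V) :=
    { carrier := {k | k ∈ M ∧ ∀ y, k (S.tp v y) = S.tp v y}
      one_mem' := ⟨M.one_mem, fun _ => rfl⟩
      mul_mem' := fun {k k'} ⟨hk, e⟩ ⟨hk', e'⟩ => ⟨M.mul_mem hk hk', fun y => by rw [LinearEquiv.mul_apply, e', e]⟩
      inv_mem' := fun {k} ⟨hk, e⟩ => ⟨M.inv_mem hk, fun y => k.injective (by
        rw [show k (k⁻¹ (S.tp v y)) = S.tp v y from k.apply_symm_apply _, e])⟩ }
  let K₀ : Subgroup (V ≃ₗ[F] V) :=
    { carrier := {k | k ∈ K ∧ ∃ s, IsIso S.al s ∧ s v = v ∧ ∀ X, k X = S.tmap s LinearMap.id X}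
      one_mem' := ⟨K.one_mem, LinearMap.id, isIso_id, rfl, fun X => by rw [S.tmap_id]; rfl⟩
      mul_mem' := by
        rintro k k' ⟨hk, s, hs, hsv, e⟩ ⟨hk', s', hs', hsv', e'⟩
        exact ⟨K.mul_mem hk hk', s ∘ₗ s', hs.comp hs', by rw [LinearMap.comp_apply, hsv', hsv], fun X => by
          rw [LinearEquiv.mul_apply, e, e', ← LinearMap.comp_apply, S.tmap_comp, LinearMap.id_comp]⟩
      inv_mem' := by
        rintro k ⟨hk, s, hs, hsv, e⟩
        set sE := isoEquiv S.sym_al hs
        refine ⟨K.inv_mem hk, (sE.symm : A →ₗ[F] A), fun a a' => ?_, sE.injective ?_, fun X => k.injective ?_⟩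
        · show S.al (sE.symm a) (sE.symm a') = _
          rw [← hs]
          show S.al (sE (sE.symm a)) (sE (sE.symm a')) = _
          rw [sE.apply_symm_apply, sE.apply_symm_apply]
        · show sE (sE.symm v) = sE v
          rw [sE.apply_symm_apply]
          exact hsv.symm
        · rw [show k (k⁻¹ X) = X from k.apply_symm_apply X, e, ← LinearMap.comp_apply, S.tmap_comp,
            LinearMap.id_comp]
          rw [show s ∘ₗ (sE.symm : A →ₗ[F] A) = LinearMap.id from LinearMap.ext fun a => sE.apply_symm_apply a,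
            S.tmap_id]
          rfl }
  -- an element of `K` centralising a non-trivial element of `U`
  have hcen : ∀ u ∈ U, u ≠ 1 → ∀ k ∈ K, k * u = u * k → k ∈ K₀ := by
    rintro u ⟨hu, y, hy, hue⟩ hu1 k ⟨hk, hkv⟩ hcom
    have hy0 : y ≠ 0 := fun h0 => hu1 (LinearEquiv.ext fun X => by rw [hue, h0, eich_zero, S.tmap_id]; rfl)
    have hyy : S.be y y ≠ 0 := fun h0 => hy0 (hw.aniso' hy h0)
    have hku : ∀ X, k (u X) = u (k X) := fun X => by
      have := LinearEquiv.congr_fun hcom X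
      exact this
    have hEk : ∀ a, ∃ a', k (S.swap.tp w a) = S.swap.tp w a' := fun a => by
      refine ⟨(-S.be y y)⁻¹ • (-S.be y y) • S.con w (k (S.tp a w')), ?_⟩
      have h1 := congrArg k (S.u_sq hw0 (hmy hy) (S.tp a w'))
      rw [map_add, map_sub, map_smul, map_smul, ← hue, ← hue, hku, hku, hue, hue, S.u_sq hw0 (hmy hy), S.con_tp,
        hw.pair' S.sym_be, one_smul] at h1
      rw [inv_smul_smul₀ (neg_ne_zero.2 hyy), S.swap_tp, S.swap_tp]
      exact (smul_right_injective V (neg_ne_zero.2 hyy) h1).symm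
    have hT : S.IsT k := S.isT_of_swap (H.toSq.swap.isT_of_frames hno' hw hw hk hEk)
    obtain ⟨s, t, hs, ht, he⟩ := H.normal_form hk hT
    have h1 : ∀ b, S.tp (s v) (t b) = S.tp v b := fun b => by rw [← S.tmap_tp, ← he, hkv]
    have hv0 : v ≠ 0 := fun h => hv (by simp [h])
    obtain ⟨d, hd⟩ : ∃ d, ∀ b, t b = d • b := ⟨S.al v v / S.al (s v) v, fun b => by
      have h2 := congrArg (S.pi v) (h1 b)
      rw [S.pi_tp, S.pi_tp] at h2
      have h3 : S.al (s v) v ≠ 0 := fun h0 => by
        rw [h0, zero_smul] at h2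
        obtain ⟨z, -, hz⟩ := S.sym_be.exists_value_in (B := ⊤) (fun x _ hx => S.be_nd x fun y => hx y trivial)
          (by rw [finrank_top, H.three']; norm_num) 1
        have h4 := congrArg (S.pi v) (h1 z)
        rw [S.pi_tp, S.pi_tp, h0, zero_smul] at h4
        rw [(smul_eq_zero.1 h4.symm).resolve_left hv] at hz
        simp at hz
      rw [div_eq_inv_mul, mul_smul, ← h2, inv_smul_smul₀ h3]⟩
    obtain ⟨z, -, hz⟩ := S.sym_be.exists_value_in (B := ⊤) (fun x _ hx => S.be_nd x fun y => hx y trivial)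
      (by rw [finrank_top, H.three']; norm_num) 1
    have hd2 : d * d = 1 := by
      have := ht.1 z z
      rwa [hd, map_smul, map_smul, LinearMap.smul_apply, hz, smul_eq_mul, smul_eq_mul, mul_one] at this
    refine ⟨⟨hk, hkv⟩, d • s, fun a a' => ?_, ?_, fun X => ?_⟩
    · simp only [LinearMap.smul_apply, map_smul, smul_eq_mul, hs.1 _ _]
      linear_combination S.al a a' * hd2
    · refine S.tp_injective' (w := z) (fun h => by simp [h] at hz) ?_
      rw [LinearMap.smul_apply, map_smul, LinearMap.smul_apply, ← map_smul, ← hd, h1]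
    · rw [he]
      exact LinearMap.congr_fun (S.hom_ext fun a b => by simp [hd]) X
  obtain ⟨y₀, hy₀, hy₀0⟩ := hw.exists_mid_ne S.sym_be H.dB
  obtain ⟨u₀, hu₀, hu₀e⟩ := H.toSq.eichB_mem hw0 (hmy hy₀)
  have hne : ∀ {y : B}, y ∈ mid S.be w w' → y ≠ 0 → ∀ {u : V ≃ₗ[F] V},
      (∀ X, u X = S.tmap LinearMap.id (eich S.be w y) X) → u ≠ 1 := by
    intro y hy hy0 u hue h1
    obtain ⟨a, -, ha⟩ := S.sym_al.exists_value_in (B := ⊤) (fun x _ hx => S.al_nd x fun y => hx y trivial)
      (by rw [finrank_top, H.three]; norm_num) 1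
    have h2 := hue (S.tp a w')
    rw [h1, S.tmap_tp] at h2
    have h3 := congrArg (S.be y) (S.tp_injective (fun h => by simp [h] at ha) (h2 : S.tp a w' = S.tp a _))
    rw [eich_right S.sym_be hw hy] at h3
    simp [S.be_symm y w, hmy hy, S.be_symm y w', (mem_mid.1 hy).2] at h3
    exact hy0 (hw.aniso' hy h3)
  have hnorm : U ≤ Subgroup.normalizer (K : Set (V ≃ₗ[F] V)) := by
    rintro u ⟨hu, y, hy, hue⟩
    have h1 : ∀ k ∈ K, u * k * u⁻¹ ∈ K := fun k ⟨hk, hkv⟩ => ⟨M.mul_mem (M.mul_mem hu hk) (M.inv_mem hu), fun z => by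
      obtain ⟨z', hz'⟩ : ∃ z', u (S.tp v z') = S.tp v z := by
        obtain ⟨z', rfl⟩ := (LinearMap.injective_iff_surjective.1
          (S.sym_be.iso_injective (eich_isIso S.sym_be hw0 (hmy hy)))) z
        exact ⟨z', by rw [hue, S.tmap_tp]; rfl⟩
      rw [LinearEquiv.mul_apply, LinearEquiv.mul_apply, ← hz', show u⁻¹ (u (S.tp v z')) = S.tp v z' from
        u.symm_apply_apply _, hkv]⟩
    rw [Subgroup.mem_normalizer_iff]
    refine fun k => ⟨h1 k, fun h => ?_⟩
    obtain ⟨hkM, hkv⟩ := h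
    have hk : k ∈ M := by
      have := M.mul_mem (M.mul_mem (M.inv_mem hu) hkM) hu
      rwa [show u⁻¹ * (u * k * u⁻¹) * u = k by group] at this
    refine ⟨hk, fun z => ?_⟩
    have h3 := hkv (eich S.be w y z)
    have h4 : u (S.tp v z) = S.tp v (eich S.be w y z) := by rw [hue, S.tmap_tp]; rfl
    rw [← h4, LinearEquiv.mul_apply, LinearEquiv.mul_apply, show u⁻¹ (u (S.tp v z)) = S.tp v z from
      u.symm_apply_apply _] at h3
    exact u.injective h3
  have hUp : IsPGroup p U := fun ⟨u, hu, y, hy, hue⟩ => ⟨1, Subtype.ext (LinearEquiv.ext fun X => by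
    have h1 : ∀ n : ℕ, ∀ X, (u ^ n) X = ((S.tmap LinearMap.id (eich S.be w y) : Module.End F V) ^ n) X := by
      intro n
      induction n with
      | zero => intro X; rfl
      | succ n ih => intro X; rw [pow_succ, pow_succ, LinearEquiv.mul_apply, Module.End.mul_apply, ih, hue]
    show (u ^ p ^ 1) X = X
    rw [pow_one, h1, S.tmap_pow, eich_pow_char S.sym_be p hw0 (hmy hy), id_pow]
    exact LinearMap.congr_fun S.tmap_id X)⟩
  have hK₀p : ¬ p ∣ Nat.card K₀ := by
    intro hdvd
    obtain ⟨⟨k, hkK, s, hs, hsv, he⟩, hk⟩ := exists_prime_orderOf_dvd_card' p hdvd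
    have hkp : k ^ p = 1 := congrArg Subtype.val (hk ▸ pow_orderOf_eq_one (⟨k, hkK, s, hs, hsv, he⟩ : K₀))
    have h1 : ∀ n : ℕ, ∀ X, (k ^ n) X = ((S.tmap s LinearMap.id : Module.End F V) ^ n) X := by
      intro n
      induction n with
      | zero => intro X; rfl
      | succ n ih => intro X; rw [pow_succ, pow_succ, LinearEquiv.mul_apply, Module.End.mul_apply, ih, he]
    have h2 : (S.tmap s LinearMap.id : Module.End F V) ^ p = 1 := LinearMap.ext fun X => by rw [← h1, hkp]; rfl
    rw [S.tmap_pow, show (LinearMap.id : Module.End F B) ^ p = 1 from one_pow p] at h2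
    obtain ⟨c, hcs, hct⟩ := S.tmap_eq_one H.posA H.posB h2
    obtain ⟨z, -, hz⟩ := S.sym_be.exists_value_in (B := ⊤) (fun x _ hx => S.be_nd x fun y => hx y trivial)
      (by rw [finrank_top, H.three']; norm_num) 1
    have hc : c = 1 := by
      have := congrArg (S.be z) (hct z)
      simpa [hz] using this
    have hs1 := fix_aniso3 (p := p) S.sym_al H.three hs (LinearMap.ext fun a => by simp [hcs, hc]) hv hsv
    have hk1 : (⟨k, hkK, s, hs, hsv, he⟩ : K₀) = 1 := Subtype.ext (LinearEquiv.ext fun X => by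
      rw [he, hs1, S.tmap_id]; rfl)
    rw [hk1, orderOf_one] at hk
    exact (Fact.out : p.Prime).one_lt.ne hk
  have hKp : ¬ p ∣ Nat.card K := by
    intro hdvd
    let act : MulAction U K :=
      { smul := fun u k => ⟨u * k * (u : V ≃ₗ[F] V)⁻¹, (Subgroup.mem_normalizer_iff.1 (hnorm u.2) k).1 k.2⟩
        one_smul := fun k => Subtype.ext (show (1 : V ≃ₗ[F] V) * k * 1⁻¹ = k by group)
        mul_smul := fun u u' k => Subtype.ext
          (show (u * u' : V ≃ₗ[F] V) * k * (u * u' : V ≃ₗ[F] V)⁻¹ =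
            (u : V ≃ₗ[F] V) * (u' * k * (u' : V ≃ₗ[F] V)⁻¹) * (u : V ≃ₗ[F] V)⁻¹ by group) }
    have h1 := hUp.card_modEq_card_fixedPoints K
    have h2 : Nat.card (MulAction.fixedPoints U K) = Nat.card K₀ := by
      refine Nat.card_congr
        { toFun := fun k => ⟨k.1.1, hcen u₀ ⟨hu₀, y₀, hy₀, hu₀e⟩ (hne hy₀ hy₀0 hu₀e) _ k.1.2 ?_⟩
          invFun := fun k => ⟨⟨k.1, k.2.1⟩, fun u => Subtype.ext ?_⟩
          left_inv := fun k => Subtype.ext (Subtype.ext rfl)
          right_inv := fun k => Subtype.ext rfl }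
      · exact (mul_inv_eq_iff_eq_mul.1 (congrArg Subtype.val (k.2 ⟨u₀, hu₀, y₀, hy₀, hu₀e⟩))).symm
      · obtain ⟨k, hk, s, hs, hsv, he⟩ := k
        obtain ⟨u, huM, y, hy, hue⟩ := u
        show u * k * u⁻¹ = k
        rw [mul_inv_eq_iff_eq_mul]
        refine LinearEquiv.ext fun X => ?_
        simp only [LinearEquiv.mul_apply, he, hue, ← LinearMap.comp_apply (f := S.tmap _ _), S.tmap_comp,
          LinearMap.id_comp, LinearMap.comp_id]
    rw [h2] at h1
    exact hK₀p (Nat.modEq_zero_iff_dvd.1 (h1.symm.trans (Nat.modEq_zero_iff_dvd.2 hdvd)))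
  have hUK : K ≤ K₀ := by
    by_cases hp5 : 5 ≤ p
    · intro k hk
      refine hcen u₀ ⟨hu₀, y₀, hy₀, hu₀e⟩ (hne hy₀ hy₀0 hu₀e) k hk ?_
      refine (commute_of_cube hp5 K hKp (hnorm ⟨hu₀, y₀, hy₀, hu₀e⟩) ?_ ?_ k hk).symm
      · refine LinearEquiv.ext fun X => ?_
        rw [coe_pow_apply, show (u₀ : V →ₗ[F] V) = S.tmap LinearMap.id (eich S.be w y₀) from LinearMap.ext hu₀e,
          S.tmap_pow, eich_pow_char S.sym_be p hw0 (hmy hy₀), id_pow]
        exact LinearMap.congr_fun S.tmap_id X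
      · rw [show (u₀ : V →ₗ[F] V) = S.tmap LinearMap.id (eich S.be w y₀) from LinearMap.ext hu₀e]
        exact tmap_sub_one_cube S (eich_cube S.sym_be hw hy₀)
    have hUcomm : IsMulCommutative U := ⟨⟨fun ⟨u, hu, y, hy, hue⟩ ⟨u', hu', y', hy', hue'⟩ => Subtype.ext
      (LinearEquiv.ext fun X => by
        show u (u' X) = u' (u X)
        rw [hue, hue', hue, hue', ← LinearMap.comp_apply, ← LinearMap.comp_apply, S.tmap_comp, S.tmap_comp,
          eich_comp S.sym_be hw0 (hmy hy) (hmy hy'), eich_comp S.sym_be hw0 (hmy hy') (hmy hy), add_comm])⟩⟩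
    have hnc : ¬ IsCyclic U := by
      intro hc
      obtain ⟨⟨g₀, hg₀⟩, hgen⟩ := hc.exists_generator
      have hcard : Nat.card U ≤ p := by
        have h1 : orderOf (⟨g₀, hg₀⟩ : U) ∣ p := by
          obtain ⟨hM, y, hy, hue⟩ := hg₀
          refine orderOf_dvd_of_pow_eq_one (Subtype.ext (LinearEquiv.ext fun X => ?_))
          have h1 : ∀ n : ℕ, ∀ X, (g₀ ^ n) X = ((S.tmap LinearMap.id (eich S.be w y) : Module.End F V) ^ n) X := by
            intro n
            induction n with
            | zero => intro X; rfl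
            | succ n ih => intro X; rw [pow_succ, pow_succ, LinearEquiv.mul_apply, Module.End.mul_apply, ih, hue]
          show (g₀ ^ p) X = X
          rw [h1, S.tmap_pow, eich_pow_char S.sym_be p hw0 (hmy hy), id_pow]
          exact LinearMap.congr_fun S.tmap_id X
        rw [← orderOf_eq_card_of_forall_mem_zpowers hgen]
        exact Nat.le_of_dvd (Fact.out : p.Prime).pos h1
      let φ : mid S.be w w' → U := fun y =>
        ⟨Classical.choose (H.toSq.eichB_mem hw0 (hmy y.2)), (Classical.choose_spec (H.toSq.eichB_mem hw0 (hmy y.2))).1,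
          y, y.2, (Classical.choose_spec (H.toSq.eichB_mem hw0 (hmy y.2))).2⟩
      have hφ : Function.Injective φ := fun y y' h => by
        have h1 : Classical.choose (H.toSq.eichB_mem hw0 (hmy y.2)) =
            Classical.choose (H.toSq.eichB_mem hw0 (hmy y'.2)) := congrArg Subtype.val h
        have e1 := (Classical.choose_spec (H.toSq.eichB_mem hw0 (hmy y.2))).2
        have e2 := (Classical.choose_spec (H.toSq.eichB_mem hw0 (hmy y'.2))).2
        obtain ⟨a, -, ha⟩ := S.sym_al.exists_value_in (B := ⊤) (fun x _ hx => S.al_nd x fun y => hx y trivial)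
          (by rw [finrank_top, H.three]; norm_num) 1
        have h2 := (e1 (S.tp a w')).symm.trans (h1 ▸ e2 (S.tp a w'))
        rw [S.tmap_tp, S.tmap_tp] at h2
        have h3 := S.tp_injective (a := a) (fun h0 => by simp [h0] at ha) (h2 : S.tp a _ = S.tp a _)
        rw [eich_right S.sym_be hw y.2, eich_right S.sym_be hw y'.2] at h3
        refine Subtype.ext (sub_eq_zero.1 (hw.nd_mid S.sym_be _ (Submodule.sub_mem _ y.2 y'.2) fun z hz => ?_))
        have h4 := congrArg (S.be z) h3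
        simp [S.be_symm z w, (mem_mid.1 hz).1, S.be_symm z w', (mem_mid.1 hz).2] at h4
        simp [S.be_symm _ z, h4]
      have : Finite B := Module.finite_of_finite F
      have hmid : finrank F (mid S.be w w') = 1 := by
        have := hw.finrank_mid S.sym_be; rw [H.three'] at this; omega
      have h5 := Nat.card_le_card_of_injective φ hφ
      rw [Module.natCard_eq_pow_finrank (K := F), hmid] at h5
      have h6 : p ∣ Nat.card F := by
        rw [Nat.card_eq_fintype_card]
        exact (CharP.cast_eq_zero_iff F p _).1 (FiniteField.cast_card_eq_zero F)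
      have h7 := Nat.le_of_dvd (Nat.card_pos) h6
      have hq := H.hq
      rw [pow_one] at h5
      omega
    refine CfsgLib.Coprime.le_of_centralizers hUcomm hnc hnorm ?_ fun u hu hu1 k ⟨hk, hku⟩ => hcen u hu hu1 k hk
      (Subgroup.mem_centralizer_iff.1 hku u rfl).symm
    obtain ⟨n, hn⟩ := IsPGroup.iff_card.1 hUp
    rw [hn]
    exact Nat.Coprime.pow_left n (((Fact.out : p.Prime).coprime_iff_not_dvd).2 hKp)
  -- conclusion
  choose π₀ hπ₀ using hE
  have hv0 : v ≠ 0 := fun h => hv (by simp [h])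
  let π : B →ₗ[F] B := (S.al v v)⁻¹ • (S.pi v ∘ₗ g.toLinearMap ∘ₗ S.tp v)
  have hπ : ∀ y, g (S.tp v y) = S.tp v (π y) := fun y => by
    simp [π, hπ₀, smul_smul, inv_mul_cancel₀ hv]
  have hπi : IsIso S.be π := fun y z => by
    have := H.iso g hg (S.tp v y) (S.tp v z)
    rw [hπ, hπ, S.form_tp, S.form_tp] at this
    exact mul_left_cancel₀ hv this
  have hw₁ : Frame S.be (π w) (π w') :=
    frame_of_pair H.wB (by rw [hπi, hw.left]) (by rw [hπi, hw.right]) (by rw [hπi, hw.pair]) S.sym_be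
  obtain ⟨u', hu', hu'e⟩ := H.toSq.eichB_mem hw₁.left (y := π y₀) (by rw [hπi, hmy hy₀])
  have hπu : ∀ z, eich S.be (π w) (π y₀) (π z) = π (eich S.be w y₀ z) := fun z => by
    simp [eich_apply, hπi _ _]
  have hkK : g * u₀ * g⁻¹ * u'⁻¹ ∈ K := by
    refine ⟨M.mul_mem (M.mul_mem (M.mul_mem hg hu₀) (M.inv_mem hg)) (M.inv_mem hu'), fun z => ?_⟩
    obtain ⟨z, rfl⟩ := LinearMap.injective_iff_surjective.1 (S.sym_be.iso_injective hπi) z
    obtain ⟨z, rfl⟩ := LinearMap.injective_iff_surjective.1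
      (S.sym_be.iso_injective (eich_isIso S.sym_be hw0 (hmy hy₀))) z
    have e1 : u' (S.tp v (π z)) = S.tp v (π (eich S.be w y₀ z)) := by rw [hu'e, S.tmap_tp, hπu]; rfl
    simp only [LinearEquiv.mul_apply]
    rw [← e1, show u'⁻¹ (u' (S.tp v (π z))) = S.tp v (π z) from u'.symm_apply_apply _, ← hπ,
      show g⁻¹ (g (S.tp v z)) = S.tp v z from g.symm_apply_apply _, hu₀e, S.tmap_tp, LinearMap.id_apply, hπ, hπ, e1]
  obtain ⟨-, s, hs, hsv, hse⟩ := hUK hkK
  have hgu : ∀ X, g (u₀ X) = S.tmap s (eich S.be (π w) (π y₀)) (g X) := fun X => by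
    have h1 : (g * u₀ * g⁻¹ * u'⁻¹) (u' (g X)) = g (u₀ X) := by
      simp only [LinearEquiv.mul_apply]
      rw [show u'⁻¹ (u' (g X)) = g X from u'.symm_apply_apply _, show g⁻¹ (g X) = X from g.symm_apply_apply X]
    rw [← h1, hse, hu'e, ← LinearMap.comp_apply, S.tmap_comp, LinearMap.id_comp, LinearMap.comp_id]
  have hsp : (s : Module.End F A) ^ p = 1 := by
    have h1 : ∀ n : ℕ, ∀ X, g ((u₀ ^ n) X) =
        ((S.tmap s (eich S.be (π w) (π y₀)) : Module.End F V) ^ n) (g X) := by
      intro n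
      induction n with
      | zero => intro X; rfl
      | succ n ih =>
        intro X
        rw [pow_succ, LinearEquiv.mul_apply, ih, hgu, pow_succ, Module.End.mul_apply]
    have hu0p : ∀ n : ℕ, ∀ X, (u₀ ^ n) X = ((S.tmap LinearMap.id (eich S.be w y₀) : Module.End F V) ^ n) X := by
      intro n
      induction n with
      | zero => intro X; rfl
      | succ n ih => intro X; rw [pow_succ, pow_succ, LinearEquiv.mul_apply, Module.End.mul_apply, ih, hu₀e]
    have h2 : (S.tmap s (eich S.be (π w) (π y₀)) : Module.End F V) ^ p = 1 := LinearMap.ext fun X => by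
      obtain ⟨X, rfl⟩ := g.surjective X
      rw [← h1, hu0p, S.tmap_pow, eich_pow_char S.sym_be p hw0 (hmy hy₀), id_pow]
      exact congrArg g (LinearMap.congr_fun S.tmap_id X)
    rw [S.tmap_pow, eich_pow_char S.sym_be p hw₁.left (by rw [hπi, hmy hy₀])] at h2
    obtain ⟨c, hcs, hct⟩ := S.tmap_eq_one H.posA H.posB h2
    obtain ⟨z, -, hz⟩ := S.sym_be.exists_value_in (B := ⊤) (fun x _ hx => S.be_nd x fun y => hx y trivial)
      (by rw [finrank_top, H.three']; norm_num) 1
    have hc : c = 1 := by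
      have := congrArg (S.be z) (hct z)
      simpa [hz] using this
    exact LinearMap.ext fun a => by simp [hcs, hc]
  have hs1 := fix_aniso3 S.sym_al H.three hs hsp hv hsv
  have hyy : S.be y₀ y₀ ≠ 0 := fun h0 => hy₀0 (hw.aniso' hy₀ h0)
  refine S.isT_of_swap (H.toSq.swap.isT_of_frames hno' hw hw₁ hg fun a => ⟨S.con (π w) (g (S.tp a w')), ?_⟩)
  have h1 := congrArg g (S.u_sq hw0 (hmy hy₀) (S.tp a w'))
  simp only [← hu₀e] at h1
  rw [map_add, map_sub, map_smul, map_smul, hgu, hgu, hs1, S.u_sq hw₁.left (by rw [hπi, hmy hy₀]), hπi, S.con_tp,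
    hw.pair' S.sym_be, one_smul] at h1
  exact (smul_right_injective V (neg_ne_zero.2 hyy) h1).symm

/-- An element commuting with a pure involution is a tensor map. -/
theorem isT_of_comm (H : Hyp3 S M) (hno : NoRoot S M) {v : A} (hv : S.al v v ≠ 0) {k : V ≃ₗ[F] V}
    (hk : ∀ X, k X = S.tmap (rot S.al v) LinearMap.id X) {x : V ≃ₗ[F] V} (hx : x ∈ M) (hc : x * k = k * x) :
    S.IsT x := by
  refine H.isT_of_aniso hno hv hx fun y => ?_
  refine S.map_fixed (H.isSO_rotA hv).1 (fun h0 => hv (by simp [h0])) (fun z hz => rot_fixed S.sym_al hv hz)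
    (rot_self S.sym_al hv) (fun X => ?_) y
  rw [← hk, ← hk]
  exact LinearEquiv.congr_fun hc X

end Hyp3

end CfsgLib.OTensorSq17
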