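import Cfsg.Agent.OTensorSq17.Basic
import Cfsg.Agent.OTensor90.Spinor
import Cfsg.Agent.FormTensor89.Instance
import Cfsg.Agent.FieldExtMax.MatrixForm
import Cfsg.Agent.Aschbacher.TensorInduced
import Cfsg.Agent.OrthGeo.Generation
import Cfsg.Agent.Aschbacher.OrthEvenMembers
import Cfsg.Agent.Eq.Def_Classical
import Cfsg.Agent.Eq.Def_ClassicalGeometry

/-!
The stabiliser of a tensor square of a three-space, in coordinates.
-/

set_option autoImplicit false
set_option linter.unusedSectionVars false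
set_option linter.unusedSimpArgs false
set_option linter.unusedVariables false

namespace CfsgLib.OTensorSq17

open Module Matrix CfsgLib.SpO90 CfsgLib.OTensor90 Cfsg.Geo
open CfsgLib.OrthGeo (bform pureTen)
open CfsgLib.FormTensor89 (tenLin tenLin_apply tenLin_span mem_tensor_of_pure tconj_tenLin)
open CfsgLib.FieldExtMax (glEquiv glEquiv_apply)
open scoped Kronecker

variable {F : Type*} [Field F] {ι : Type} [Fintype ι] [DecidableEq ι]

/-- The bijection of index sets as one with pairs. -/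
def pairIdx (e : ι ≃ (Fin 2 → Fin 3)) : ι ≃ Fin 3 × Fin 3 := e.trans (finTwoArrowEquiv (Fin 3))

/-- The exchange of the two factors. -/
def flipGL : GL (Fin 2 → Fin 3) F where
  val := Matrix.of fun x y => if y = x ∘ Equiv.swap (0 : Fin 2) 1 then 1 else 0
  inv := Matrix.of fun x y => if y = x ∘ Equiv.swap (0 : Fin 2) 1 then 1 else 0
  val_inv := by
    ext x y
    rw [Matrix.mul_apply, Finset.sum_eq_single (x ∘ Equiv.swap (0 : Fin 2) 1)
      (fun j _ hj => by simp [hj]) (fun h => absurd (Finset.mem_univ _) h)]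
    have hx : x ∘ Equiv.swap (0 : Fin 2) 1 ∘ Equiv.swap (0 : Fin 2) 1 = x := funext fun i => by simp
    simp [Matrix.one_apply, Function.comp_assoc, hx, eq_comm (a := y)]
  inv_val := by
    ext x y
    rw [Matrix.mul_apply, Finset.sum_eq_single (x ∘ Equiv.swap (0 : Fin 2) 1)
      (fun j _ hj => by simp [hj]) (fun h => absurd (Finset.mem_univ _) h)]
    have hx : x ∘ Equiv.swap (0 : Fin 2) 1 ∘ Equiv.swap (0 : Fin 2) 1 = x := funext fun i => by simp
    simp [Matrix.one_apply, Function.comp_assoc, hx, eq_comm (a := y)]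

/-- The exchange of the two factors in coordinates. -/
noncomputable def swapGL (e : ι ≃ (Fin 2 → Fin 3)) (P : GL ι F) : GL ι F :=
  MulAut.conj P (glReindex e.symm flipGL)

lemma swapGL_mem (e : ι ≃ (Fin 2 → Fin 3)) (P : GL ι F) : swapGL e P ∈ tensorWreathSubgroup 3 2 e P :=
  Subgroup.mem_map.2 ⟨_, Subgroup.mem_map.2 ⟨flipGL, Subgroup.subset_closure (Or.inr ⟨Equiv.swap 0 1,
    fun x y => rfl⟩), rfl⟩, rfl⟩

lemma img_mulVec (e : ι ≃ (Fin 2 → Fin 3)) (P : GL ι F) (g : GL (Fin 2 → Fin 3) F) (a b : Fin 3 → F) :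
    ((MulAut.conj P (glReindex e.symm g) : GL ι F) : Matrix ι ι F) *ᵥ tenLin (pairIdx e) P a b =
      (P : Matrix ι ι F) *ᵥ (((g : Matrix (Fin 2 → Fin 3) (Fin 2 → Fin 3) F) *ᵥ fun x => a (x 0) * b (x 1)) ∘ e) := by
  rw [tenLin_apply, show ((MulAut.conj P (glReindex e.symm g) : GL ι F) : Matrix ι ι F) =
      CfsgLib.Aschbacher.tconj e P (g : Matrix (Fin 2 → Fin 3) (Fin 2 → Fin 3) F) from rfl,
    CfsgLib.Aschbacher.tconj_apply, ← mulVec_mulVec, CfsgLib.FormTensor89.inv_mulVec, ← mulVec_mulVec]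
  congr 1
  rw [Matrix.submatrix_mulVec_equiv]
  congr 1
  congr 1
  funext x
  simp [pairIdx, pureTen, finTwoArrowEquiv]

lemma swapGL_mulVec (e : ι ≃ (Fin 2 → Fin 3)) (P : GL ι F) (a b : Fin 3 → F) :
    (swapGL e P : Matrix ι ι F) *ᵥ tenLin (pairIdx e) P a b = tenLin (pairIdx e) P b a := by
  rw [swapGL, img_mulVec, tenLin_apply]
  congr 1
  funext i
  simp [flipGL, Matrix.mulVec, dotProduct, pairIdx, pureTen, finTwoArrowEquiv, mul_comm]

lemma tensor_le_wreath (e : ι ≃ (Fin 2 → Fin 3)) (P : GL ι F) :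
    tensorProductSubgroup 3 3 (pairIdx e) P ≤ tensorWreathSubgroup 3 2 e P := by
  intro g hg
  obtain ⟨a, b, hab⟩ := (CfsgLib.Aschbacher.mem_tensorProductSubgroup_iff (pairIdx e) P g).1 hg
  refine Subgroup.mem_map.2 ⟨_, Subgroup.mem_map.2 ⟨CfsgLib.Aschbacher.kroneckerPowGL ![a, b],
    Subgroup.subset_closure (Or.inl ⟨_, fun x y => rfl⟩), rfl⟩, ?_⟩
  apply Units.ext
  rw [hab]
  show CfsgLib.Aschbacher.tconj e P (CfsgLib.Aschbacher.kroneckerPow _) = _
  rw [CfsgLib.Aschbacher.tconj_apply, CfsgLib.Aschbacher.tconj_apply]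
  congr 2
  ext i j
  simp [CfsgLib.Aschbacher.kroneckerPow, Fin.prod_univ_two, Matrix.kroneckerMap_apply, pairIdx, finTwoArrowEquiv]

variable [Fintype F]

/-- An element carrying pure tensors to pure tensors or to exchanged ones lies in the stabiliser. -/
lemma mem_wreath_of (S : Setting F (Fin 3 → F) (Fin 3 → F) (ι → F)) (e : ι ≃ (Fin 2 → Fin 3)) (P : GL ι F)
    (htp : S.tp = tenLin (pairIdx e) P) {g : GL ι F} (h : S.IsT (glEquiv g) ∨ IsA S (glEquiv g)) :
    g ∈ tensorWreathSubgroup 3 2 e P := by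
  rcases h with ⟨x, y, hxy⟩ | ⟨x, y, hxy⟩
  · refine tensor_le_wreath e P (mem_tensor_of_pure (by norm_num) (pairIdx e) P g x y fun u z => ?_)
    rw [← glEquiv_apply, ← htp]
    exact hxy u z
  · have h1 : swapGL e P * g ∈ tensorWreathSubgroup 3 2 e P := by
      refine tensor_le_wreath e P (mem_tensor_of_pure (by norm_num) (pairIdx e) P _ y x fun u z => ?_)
      have h2 := hxy u z
      rw [glEquiv_apply, htp] at h2
      rw [Units.val_mul, ← mulVec_mulVec, h2, swapGL_mulVec]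
      rfl
    have h3 := mul_mem (inv_mem (swapGL_mem e P)) h1
    rwa [inv_mul_cancel_left] at h3

/-- The stabiliser consists of such elements. -/
lemma of_mem_wreath (S : Setting F (Fin 3 → F) (Fin 3 → F) (ι → F)) (e : ι ≃ (Fin 2 → Fin 3)) (P : GL ι F)
    (htp : S.tp = tenLin (pairIdx e) P) {g : GL ι F} (hg : g ∈ tensorWreathSubgroup 3 2 e P) :
    S.IsT (glEquiv g) ∨ IsA S (glEquiv g) := by
  suffices h : tensorWreathSubgroup 3 2 e P ≤
      (hsub S ⊤).comap (glEquiv : GL ι F ≃* ((ι → F) ≃ₗ[F] (ι → F))).toMonoidHom from (mem_hsub.1 (h hg)).2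
  rw [tensorWreathSubgroup, Subgroup.map_le_iff_le_comap, Subgroup.map_le_iff_le_comap, tensorWreathStandard,
    Subgroup.closure_le]
  intro k hk
  refine mem_hsub.2 ⟨trivial, ?_⟩
  rcases hk with ⟨gs, hgs⟩ | ⟨σ, hσ⟩
  · refine Or.inl ⟨glEquiv (gs 0), glEquiv (gs 1), fun a b => ?_⟩
    change glEquiv (MulAut.conj P (glReindex e.symm k)) (S.tp a b) = _
    rw [glEquiv_apply, glEquiv_apply, glEquiv_apply, htp, img_mulVec, tenLin_apply]
    congr 1
    funext i
    simp only [Function.comp_apply, pairIdx, pureTen, Equiv.trans_apply, finTwoArrowEquiv_apply, Matrix.mulVec,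
      dotProduct, hgs, Fin.prod_univ_two]
    rw [← (finTwoArrowEquiv (Fin 3)).symm.sum_comp, Fintype.sum_prod_type, Finset.sum_mul_sum]
    refine Finset.sum_congr rfl fun _ _ => Finset.sum_congr rfl fun _ _ => ?_
    simp [finTwoArrowEquiv]
    ring
  · rcases (by decide : ∀ τ : Equiv.Perm (Fin 2), τ = 1 ∨ τ = Equiv.swap 0 1) σ with rfl | rfl
    · refine Or.inl ⟨LinearEquiv.refl F _, LinearEquiv.refl F _, fun a b => ?_⟩
      change glEquiv (MulAut.conj P (glReindex e.symm k)) (S.tp a b) = _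
      have hk1 : k = 1 := Units.ext (by ext x y; simp [hσ, Matrix.one_apply, eq_comm])
      simp [hk1]
    · refine Or.inr ⟨LinearEquiv.refl F _, LinearEquiv.refl F _, fun a b => ?_⟩
      change glEquiv (MulAut.conj P (glReindex e.symm k)) (S.tp a b) = _
      have hk1 : k = flipGL := Units.ext (by ext x y; simp [hσ, flipGL])
      rw [hk1, glEquiv_apply, htp, ← swapGL, swapGL_mulVec]
      rfl

/-- The group generated by the root maps is not contained in the stabiliser. -/
lemma not_omega_le_wreath {Q : (ι → F) → F} (hQ : IsNondegenerateQuadraticForm Q) (h2 : (2 : F) ≠ 0)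
    (S : Setting F (Fin 3 → F) (Fin 3 → F) (ι → F)) (e : ι ≃ (Fin 2 → Fin 3)) (P : GL ι F)
    (htp : S.tp = tenLin (pairIdx e) P) : ¬ omegaGL Q ≤ tensorWreathSubgroup 3 2 e P := by
  intro h
  have hn : Fintype.card ι = 9 := by rw [Fintype.card_congr (pairIdx e)]; simp
  refine CfsgLib.Aschbacher.OrthEven.not_le_tensorProductSubgroup hQ (by omega) (by norm_num) (by norm_num)
    (pairIdx e) P ?_
  rw [CfsgLib.OrthGeo.omegaGL_eq_eichlerGroup hQ (by omega)]
  refine (Subgroup.closure_le _).2 ?_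
  rintro _ ⟨u, w, hu, hw, rfl⟩
  have hh : bform hQ u ((2 : F)⁻¹ • w) = 0 := by rw [map_smul, hw, smul_zero]
  have hhh : (2 : F)⁻¹ • w + (2 : F)⁻¹ • w = w := by
    rw [← add_smul, ← two_mul, mul_inv_cancel₀ h2, one_smul]
  set x := CfsgLib.OrthGeo.eichler hQ hu hh
  have hsq : CfsgLib.OrthGeo.eichler hQ hu hw = x * x := by
    rw [CfsgLib.OrthGeo.eichler_mul hQ hu hh hh (by rw [hhh]; exact hw)]
    congr 1
    exact hhh.symm
  have hT : S.IsT (glEquiv (x * x)) := by
    have hx : x ∈ tensorWreathSubgroup 3 2 e P := h (by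
      rw [CfsgLib.OrthGeo.omegaGL_eq_eichlerGroup hQ (by omega)]
      exact Subgroup.subset_closure ⟨u, _, hu, hh, rfl⟩)
    rw [map_mul]
    rcases of_mem_wreath S e P htp hx with h1 | ⟨y, z, h1⟩
    · exact S.isT_mul h1 h1
    · exact ⟨z.trans y, y.trans z, fun a b => by simp [h1]⟩
  obtain ⟨y, z, hyz⟩ := hT
  rw [SetLike.mem_coe, hsq]
  refine mem_tensor_of_pure (by norm_num) (pairIdx e) P _ y z fun a b => ?_
  rw [← glEquiv_apply, ← htp]
  exact hyz a b

end CfsgLib.OTensorSq17
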