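import Cfsg.Agent.OTensorSq17.Final
import Cfsg.Agent.OTensorSq17.Wreath
import Cfsg.Agent.OTensor90.Instance
import Cfsg.Agent.OrthGeo.OddInvolutions

/-!
Maximality of the stabiliser of a decomposition as the tensor square of an orthogonal three-space.
-/

set_option autoImplicit false
set_option linter.unusedSectionVars false
set_option linter.unusedSimpArgs false
set_option linter.unusedVariables false

namespace CfsgLib.OTensorSq17

open Module Matrix CfsgLib.SpO90 CfsgLib.OTensor90 Cfsg.Geo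
open CfsgLib.OrthGeo (bform bform_apply bilinOf bilinOf_apply pureTen)
open CfsgLib.FormTensor89 (tenLin tenLin_apply tenLin_span mem_tensor_of_pure)
open CfsgLib.FieldExtMax (glEquiv glEquiv_apply)
open scoped Kronecker

variable {F : Type*} [Field F] [Fintype F] {ι : Type} [Fintype ι] [DecidableEq ι] {Q : (ι → F) → F}

lemma det_prod_reflections (hQ : IsNondegenerateQuadraticForm Q) :
    ∀ L : List (ι → F), (∀ w ∈ L, Q w ≠ 0) →
      (L.map fun w => Cfsg.reflectionMatrix Q w).prod.det = (-1) ^ L.length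
  | [], _ => by simp
  | v :: vs, h => by
    rw [List.map_cons, List.prod_cons, Matrix.det_mul,
      CfsgLib.Classical.Orth.det_reflection hQ (h v (List.mem_cons_self ..)),
      det_prod_reflections hQ vs fun w hw => h w (List.mem_cons_of_mem _ hw), List.length_cons, pow_succ']

/-- A tensor map of two isometries of determinant one has determinant one. -/
lemma det_tmap_id (hQ : IsNondegenerateQuadraticForm Q) (S : Setting F (Fin 3 → F) (Fin 3 → F) (ι → F))
    (hS : ∀ X Y, S.form X Y = bform hQ X Y) (bs : Basis (Fin 3) F (Fin 3 → F))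
    (ho : ∀ i j, i ≠ j → S.be (bs i) (bs j) = 0) {s : (Fin 3 → F) →ₗ[F] (Fin 3 → F)} (hs : IsSO S.al s) :
    LinearMap.det (S.tmap s LinearMap.id) = 1 := by
  obtain ⟨vs, hvs, hev, hvs'⟩ := exists_even_list S.sym_al hs
  obtain ⟨i1, i2, -, i4⟩ := tenList_spec hQ S hS bs ho vs hvs
  have e : S.tmap s LinearMap.id =
      Matrix.toLin' ((tenList S bs vs).map fun w => Cfsg.reflectionMatrix Q w).prod :=
    LinearMap.ext fun X => by rw [Matrix.toLin'_apply, i4, hvs']
  rw [e, LinearMap.det_toLin', det_prod_reflections hQ _ i1, i2]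
  exact (hev.mul_left 3).neg_one_pow

set_option maxHeartbeats 1000000 in
/-- The stabiliser of a decomposition as the tensor square of `O₃` is maximal, `q ≥ 5` odd. -/
theorem orth_tensor_square_isMaximal (hQ : IsNondegenerateQuadraticForm Q) (hodd : Odd (Fintype.card F))
    (hq : 5 ≤ Fintype.card F) (e : ι ≃ (Fin 2 → Fin 3)) (P : GL ι F) {f₁ : (Fin 3 → F) → (Fin 3 → F) → F}
    (h1 : IsSymmetricForm f₁) (hT : IsTensorPowerFormStructure id (QuadraticMap.polar Q) f₁ e P) :
    IsMaximalIn (omegaGL Q) (tensorWreathSubgroup 3 2 e P ⊓ omegaGL Q) := by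
  classical
  obtain ⟨c, hc, hcT⟩ := hT
  have hn : Fintype.card ι = 9 := by rw [Fintype.card_congr (pairIdx e)]; simp
  have h2 : (2 : F) ≠ 0 := by
    refine Ring.two_ne_zero fun h => ?_
    have := (FiniteField.even_card_iff_char_two (F := F)).1 h
    rw [Nat.odd_iff] at hodd
    omega
  have hexc := CfsgLib.Classical.Orth.not_exc_of_two_ne_zero (F := F) (ι := ι) h2
  have hnd₁ : ∀ a, (∀ y, f₁ a y = 0) → a = 0 := fun a ha => by
    by_contra h0
    obtain ⟨y, hy⟩ := (h1.nondegenerate a h0).2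
    exact hy (ha y)
  have hform : ∀ a w a' w', QuadraticMap.polar Q (tenLin (pairIdx e) P a w) (tenLin (pairIdx e) P a' w') =
      c * (f₁ a a' * f₁ w w') := by
    intro a w a' w'
    rw [← CfsgLib.OrthGeo.formOfGram_pureTen h1.bilinear h1.bilinear, tenLin_apply, tenLin_apply, pairIdx,
      show pureTen a w ∘ (e.trans (finTwoArrowEquiv (Fin 3))) = (pureTen a w ∘ finTwoArrowEquiv (Fin 3)) ∘ e from rfl,
      show pureTen a' w' ∘ (e.trans (finTwoArrowEquiv (Fin 3))) =
        (pureTen a' w' ∘ finTwoArrowEquiv (Fin 3)) ∘ e from rfl, hcT]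
    congr 1
    simp only [formOfGram, id, Function.comp_apply]
    rw [← (finTwoArrowEquiv (Fin 3)).sum_comp fun p => ∑ q, pureTen a w p * (gramMatrix f₁ ⊗ₖ gramMatrix f₁) p q *
      pureTen a' w' q]
    refine Finset.sum_congr rfl fun x _ => ?_
    rw [← (finTwoArrowEquiv (Fin 3)).sum_comp fun q => pureTen a w _ * (gramMatrix f₁ ⊗ₖ gramMatrix f₁) _ q *
      pureTen a' w' q]
    refine Finset.sum_congr rfl fun y _ => ?_
    simp [Fin.prod_univ_two, Matrix.kroneckerMap_apply, finTwoArrowEquiv]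
  let S : Setting F (Fin 3 → F) (Fin 3 → F) (ι → F) :=
    { al := c • bilinOf h1.bilinear
      be := bilinOf h1.bilinear
      form := bform hQ
      tp := tenLin (pairIdx e) P
      two := h2
      al_symm := fun a b => by simp [bilinOf_apply, h1.symm a b]
      al_nd := fun a ha => hnd₁ a fun y => (mul_eq_zero.1 (ha y)).resolve_left hc
      be_symm := h1.symm
      be_nd := hnd₁
      form_symm := CfsgLib.OrthGeo.b_symm hQ
      form_tp := fun a w a' w' => by
        change QuadraticMap.polar Q _ _ = c * f₁ a a' * f₁ w w'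
        rw [hform, mul_assoc]
      form_ext := fun X hX => (CfsgLib.OrthGeo.b_nondeg hQ).1 X fun y =>
        LinearMap.congr_fun (LinearMap.ext_on (tenLin_span (pairIdx e) P) (f := bform hQ X) (g := 0)
          (by rintro _ ⟨u, z, rfl⟩; exact hX u z)) y }
  have hS : ∀ X Y, S.form X Y = bform hQ X Y := fun _ _ => rfl
  have htp : S.tp = tenLin (pairIdx e) P := rfl
  refine ⟨lt_of_le_of_ne inf_le_right fun h => not_omega_le_wreath hQ h2 S e P htp (h.ge.trans inf_le_left),
    fun M hHM hMG => ?_⟩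
  have hfin : finrank F (Fin 3 → F) = 3 := finrank_fin_fun F
  have hsymB : LinearMap.IsSymm S.be :=
    LinearMap.BilinForm.isSymm_iff.1 (LinearMap.BilinForm.isSymm_def.2 S.be_symm)
  letI := invertibleOfNonzero h2
  obtain ⟨b₀, hb₀⟩ := LinearMap.BilinForm.exists_orthogonal_basis hsymB
  let bs : Basis (Fin 3) F (Fin 3 → F) := b₀.reindex (finCongr hfin)
  have hbo : ∀ i j, i ≠ j → S.be (bs i) (bs j) = 0 := fun i j hij => by
    rw [Module.Basis.reindex_apply, Module.Basis.reindex_apply]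
    exact hb₀ ((finCongr hfin).symm.injective.ne hij)
  have hab : ∀ u v, S.al u v = c * S.be u v := fun u v => rfl
  have hao : ∀ i j, i ≠ j → S.al (bs i) (bs j) = 0 := fun i j hij => by rw [hab, hbo i j hij, mul_zero]
  have hbd := orth_diag_ne_zero S.sym_be bs hbo
  have had := orth_diag_ne_zero S.sym_al bs hao
  set M' := M.map (glEquiv : GL ι F ≃* _).toMonoidHom with hM'
  have hmem : ∀ g, glEquiv g ∈ M' ↔ g ∈ M :=
    fun g => Subgroup.mem_map_equiv.trans (by rw [MulEquiv.symm_apply_apply])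
  have hiso : ∀ g ∈ M', ∀ X Y, S.form (g X) (g Y) = S.form X Y := by
    rintro _ ⟨g, hg, rfl⟩ X Y
    exact CfsgLib.OrthGeo.isometry_b hQ (CfsgLib.OrthGeo.omegaGL_le (hMG hg)) X Y
  have hmk : ∀ (L : List (ι → F)), (∀ w ∈ L, Q w ≠ 0) → Even L.length → IsSquare (L.map Q).prod →
      ∀ f : (ι → F) →ₗ[F] (ι → F),
      (∀ X, (L.map fun w => Cfsg.reflectionMatrix Q w).prod *ᵥ X = f X) →
      (∀ g : (ι → F) ≃ₗ[F] (ι → F), (∀ X, g X = f X) → S.IsT g ∨ IsA S g) → InM M' f := by
    intro L hL hLe hLs f hf hW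
    obtain ⟨g, hg, hgM⟩ :=
      (CfsgLib.Classical.Orth.exists_mem_omega_iff_of_prod hQ hexc _ L hL rfl).2 ⟨hLe, hLs⟩
    have hgf : ∀ X, glEquiv (g : GL ι F) X = f X := fun X => by rw [glEquiv_apply, hgM, hf]
    exact ⟨glEquiv (g : GL ι F), (hmem _).2 (hHM ⟨mem_wreath_of S e P htp (hW _ hgf), ⟨g, hg, rfl⟩⟩), hgf⟩
  have hmemA : ∀ a b, S.al a a ≠ 0 → S.al b b ≠ 0 → IsSquare (S.al a a * S.al b b) →
      InM M' (S.tmap (refl S.al a ∘ₗ refl S.al b) LinearMap.id) := by
    intro a b ha hb hsq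
    obtain ⟨i1, i2, i3, i4⟩ := tenList_spec hQ S hS bs hbo [a, b] (by simp [ha, hb])
    refine hmk _ i1 ⟨3, by rw [i2]; rfl⟩ ?_ _ (fun X => ?_) (fun g hg => Or.inl
      ⟨isoEquiv S.sym_al (isSO_refl_refl S.sym_al ha hb).1, LinearEquiv.refl F _, fun u v => by simp [hg]⟩)
    · rw [i3]
      obtain ⟨r, hr⟩ := hsq
      simp only [List.map_cons, List.map_nil, List.prod_cons, List.prod_nil, mul_one, List.length_cons,
        List.length_nil]
      refine ⟨r ^ 3 * (2 : F)⁻¹ ^ 3 * ∏ j, S.be (bs j) (bs j), ?_⟩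
      change (S.al a a / 2) ^ 3 * (S.al b b / 2) ^ 3 * (∏ j, S.be (bs j) (bs j)) ^ 2 = _
      rw [div_eq_mul_inv, div_eq_mul_inv]
      generalize (2 : F)⁻¹ = u
      linear_combination ((S.al a a * S.al b b) ^ 2 + S.al a a * S.al b b * (r * r) + (r * r) ^ 2) *
        (∏ j, S.be (bs j) (bs j)) ^ 2 * u ^ 6 * hr
    · rw [i4]
      rfl
  have hmemB : ∀ a b, S.be a a ≠ 0 → S.be b b ≠ 0 → IsSquare (S.be a a * S.be b b) →
      InM M' (S.tmap LinearMap.id (refl S.be a ∘ₗ refl S.be b)) := by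
    intro a b ha hb hsq
    obtain ⟨i1, i2, i3, i4⟩ := tenList_spec hQ S.swap hS bs hao [a, b] (by
      simp only [List.mem_cons, List.not_mem_nil, or_false]
      rintro v (rfl | rfl) <;> assumption)
    refine hmk _ i1 ⟨3, by rw [i2]; rfl⟩ ?_ _ (fun X => ?_) (fun g hg => Or.inl
      ⟨LinearEquiv.refl F _, isoEquiv S.sym_be (isSO_refl_refl S.sym_be ha hb).1, fun u v => by simp [hg]⟩)
    · rw [i3]
      obtain ⟨r, hr⟩ := hsq
      simp only [List.map_cons, List.map_nil, List.prod_cons, List.prod_nil, mul_one, List.length_cons,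
        List.length_nil]
      refine ⟨r ^ 3 * (2 : F)⁻¹ ^ 3 * ∏ j, S.al (bs j) (bs j), ?_⟩
      change (S.be a a / 2) ^ 3 * (S.be b b / 2) ^ 3 * (∏ j, S.al (bs j) (bs j)) ^ 2 = _
      rw [div_eq_mul_inv, div_eq_mul_inv]
      generalize (2 : F)⁻¹ = u
      linear_combination ((S.be a a * S.be b b) ^ 2 + S.be a a * S.be b b * (r * r) + (r * r) ^ 2) *
        (∏ j, S.al (bs j) (bs j)) ^ 2 * u ^ 6 * hr
    · rw [i4, S.tmap_swap]
      rfl
  -- the exchange of the two factors
  let d : Fin 3 → Fin 3 → (ι → F) := fun i j => S.tp (bs i) (bs j) - S.tp (bs j) (bs i)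
  have hd : ∀ i j, i ≠ j → ∀ k l, bform hQ (d i j) (S.tp (bs k) (bs l)) =
      (if k = i ∧ l = j then c * S.be (bs i) (bs i) * S.be (bs j) (bs j) else 0) -
      (if k = j ∧ l = i then c * S.be (bs i) (bs i) * S.be (bs j) (bs j) else 0) := by
    intro i j hij k l
    have key : ∀ i j, S.form (S.tp (bs i) (bs j)) (S.tp (bs k) (bs l)) =
        if k = i ∧ l = j then c * S.be (bs i) (bs i) * S.be (bs j) (bs j) else 0 := by
      intro i j
      rw [S.form_tp]
      by_cases h1 : k = i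
      · by_cases h2 : l = j
        · subst h1 h2; simp [hab]
        · rw [hbo j l (Ne.symm h2), mul_zero, if_neg (fun h => h2 h.2)]
      · rw [hao i k (Ne.symm h1), zero_mul, if_neg (fun h => h1 h.1)]
    rw [← hS, map_sub, LinearMap.sub_apply, key, key]
    congr 2
    ring
  have hdQ : ∀ i j, i ≠ j → Q (d i j) = c * S.be (bs i) (bs i) * S.be (bs j) (bs j) := by
    intro i j hij
    have h := CfsgLib.OrthGeo.b_self hQ (d i j)
    have h0 : bform hQ (d i j) (d i j) =
        bform hQ (d i j) (S.tp (bs i) (bs j)) - bform hQ (d i j) (S.tp (bs j) (bs i)) :=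
      map_sub (bform hQ (d i j)) _ _
    rw [h0] at h
    rw [hd i j hij, hd i j hij] at h
    simp [hij, hij.symm] at h
    exact mul_left_cancel₀ h2 (by linear_combination -h)
  set Ld : List (ι → F) := [d 0 1, d 0 2, d 1 2] with hLd
  have hLdQ : ∀ w ∈ Ld, Q w ≠ 0 := by
    simp only [hLd, List.mem_cons, List.not_mem_nil, or_false]
    rintro w (rfl | rfl | rfl) <;> rw [hdQ _ _ (by decide)] <;> exact mul_ne_zero (mul_ne_zero hc (hbd _)) (hbd _)
  have hdd : ∀ i j k l, i ≠ j → k ≠ l → ¬ (k = i ∧ l = j) → ¬ (k = j ∧ l = i) → bform hQ (d i j) (d k l) = 0 := by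
    intro i j k l hij hkl h1 h2
    rw [show d k l = S.tp (bs k) (bs l) - S.tp (bs l) (bs k) from rfl, map_sub, hd i j hij, hd i j hij, if_neg h1,
      if_neg h2, if_neg (fun h => h2 ⟨h.2, h.1⟩), if_neg (fun h => h1 ⟨h.2, h.1⟩), sub_zero, sub_zero]
  have hLdp : Ld.Pairwise (fun x y => bform hQ x y = 0) := by
    simp only [hLd, List.pairwise_cons, List.Pairwise.nil, List.mem_cons, List.not_mem_nil, or_false]
    refine ⟨?_, ?_, fun x h => h.elim, trivial⟩
    · rintro x (rfl | rfl) <;> exact hdd _ _ _ _ (by decide) (by decide) (by decide) (by decide)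
    · rintro x rfl
      exact hdd _ _ _ _ (by decide) (by decide) (by decide) (by decide)
  have hflip : ∀ a w, (Ld.map fun w => Cfsg.reflectionMatrix Q w).prod *ᵥ S.tp a w = S.tp w a := by
    suffices h : S.tp.compr₂ (Matrix.toLin' (Ld.map fun w => Cfsg.reflectionMatrix Q w).prod) = S.tp.flip from
      fun a w => LinearMap.congr_fun (LinearMap.congr_fun h a) w
    refine bs.ext fun k => bs.ext fun l => ?_
    rw [LinearMap.compr₂_apply, LinearMap.flip_apply, Matrix.toLin'_apply,
      CfsgLib.Classical.Orth.prod_reflection_orthogonal hQ Ld hLdQ hLdp]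
    simp only [hLd, List.map_cons, List.map_nil, List.sum_cons, List.sum_nil, add_zero]
    rw [hdQ 0 1 (by decide), hdQ 0 2 (by decide), hdQ 1 2 (by decide), hd 0 1 (by decide), hd 0 2 (by decide),
      hd 1 2 (by decide)]
    have n1 := mul_ne_zero (mul_ne_zero hc (hbd 0)) (hbd 1)
    have n2 := mul_ne_zero (mul_ne_zero hc (hbd 0)) (hbd 2)
    have n3 := mul_ne_zero (mul_ne_zero hc (hbd 1)) (hbd 2)
    generalize c * S.be (bs 0) (bs 0) * S.be (bs 1) (bs 1) = q1 at n1 ⊢
    generalize c * S.be (bs 0) (bs 0) * S.be (bs 2) (bs 2) = q2 at n2 ⊢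
    generalize c * S.be (bs 1) (bs 1) * S.be (bs 2) (bs 2) = q3 at n3 ⊢
    fin_cases k <;> fin_cases l <;> simp [d, n1, n2, n3]
  obtain ⟨j1, j2, j3, j4⟩ := tenList_spec hQ S hS bs hbo [bs 0, bs 1, bs 2] (by simp [had])
  rw [reflProd_basis_three S.sym_al bs hao] at j4
  set L₀ := tenList S bs [bs 0, bs 1, bs 2]
  set γ := (Ld.map Q).prod * (L₀.map Q).prod with hγdef
  have hLne : ∀ L : List (ι → F), (∀ w ∈ L, Q w ≠ 0) → (L.map Q).prod ≠ 0 := fun L hL h0 => by
    obtain ⟨w, hw, hw0⟩ := List.mem_map.1 (List.prod_eq_zero_iff.1 h0)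
    exact hL w hw hw0
  have hγ : γ ≠ 0 := mul_ne_zero (hLne _ hLdQ) (hLne _ j1)
  obtain ⟨a₁, -, ha₁⟩ := S.sym_al.exists_value_in (B := ⊤) (fun u _ h => S.al_nd u fun z => h z trivial)
    (by rw [finrank_top, hfin]; norm_num) 2
  obtain ⟨a₂, -, ha₂⟩ := S.sym_al.exists_value_in (B := ⊤) (fun u _ h => S.al_nd u fun z => h z trivial)
    (by rw [finrank_top, hfin]; norm_num) (2 * γ)
  have ha₁0 : S.al a₁ a₁ ≠ 0 := by rw [ha₁]; exact h2
  have ha₂0 : S.al a₂ a₂ ≠ 0 := by rw [ha₂]; exact mul_ne_zero h2 hγ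
  obtain ⟨k1, k2, k3, k4⟩ := tenList_spec hQ S hS bs hbo [a₁, a₂] (by simp [ha₁0, ha₂0])
  set Lab := tenList S bs [a₁, a₂]
  set σ := isoEquiv S.sym_al (isSO_refl_refl S.sym_al ha₁0 ha₂0).1
  let fτ : (ι → F) →ₗ[F] (ι → F) := Matrix.toLin' (Ld.map fun w => Cfsg.reflectionMatrix Q w).prod ∘ₗ
    (-LinearMap.id) ∘ₗ S.tmap (refl S.al a₁ ∘ₗ refl S.al a₂) LinearMap.id
  have hfτ : ∀ a w, fτ (S.tp a w) = S.tp (-w) (σ a) := fun a w => by
    simp [fτ, Matrix.mulVec_neg, hflip, σ]
  have hτ : InM M' fτ := by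
    refine hmk ((Ld ++ L₀) ++ Lab) (fun w hw => ?_) ⟨9, ?_⟩ ?_ fτ (fun X => ?_)
      (fun g hg => Or.inr ⟨LinearEquiv.neg F, σ, fun a w => by rw [hg, hfτ]; rfl⟩)
    · rcases List.mem_append.1 hw with hw | hw
      · exact (List.mem_append.1 hw).elim (hLdQ w) (j1 w)
      · exact k1 w hw
    · rw [List.length_append, List.length_append, j2, k2]
      rfl
    · rw [List.map_append, List.map_append, List.prod_append, List.prod_append, k3, ← hγdef]
      refine ⟨γ ^ 2 * ∏ j, S.be (bs j) (bs j), ?_⟩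
      simp only [List.map_cons, List.map_nil, List.prod_cons, List.prod_nil, mul_one, List.length_cons,
        List.length_nil, ha₁, ha₂, mul_div_cancel_left₀ _ h2, div_self h2]
      ring
    · rw [List.map_append, List.map_append, List.prod_append, List.prod_append, ← Matrix.mulVec_mulVec,
        ← Matrix.mulVec_mulVec, k4, j4,
        show S.tmap (-LinearMap.id) LinearMap.id = -LinearMap.id from S.hom_ext fun a b => by simp]
      rfl
  have H : Hyp3 S M' :=
    { iso := hiso
      memA := hmemA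
      memB := hmemB
      wA := wittOne_three S.sym_al hfin
      wB := wittOne_three S.sym_be hfin
      three := hfin
      three' := hfin
      hq := by rwa [Nat.card_eq_fintype_card]
      tau := by
        obtain ⟨g, hg, hge⟩ := hτ
        exact ⟨g, hg, LinearEquiv.neg F, σ, fun a w => by rw [hge, hfτ]; rfl⟩
      neg_notMem := by
        rintro s t hs ht ⟨g, hg, hge⟩
        obtain ⟨g, hgM, rfl⟩ := hg
        have e1 : Matrix.toLin' (g : Matrix ι ι F) = (-1 : F) • S.tmap s t := LinearMap.ext fun X => by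
          rw [Matrix.toLin'_apply, ← glEquiv_apply, LinearMap.smul_apply, neg_one_smul]
          exact hge X
        have e2 := congrArg LinearMap.det e1
        rw [LinearMap.det_toLin', CfsgLib.OrthGeo.OddInvolutions.det_of_mem_omegaGL (hMG hgM), LinearMap.det_smul,
          Module.finrank_pi, hn, show S.tmap s t = S.tmap s LinearMap.id ∘ₗ S.tmap LinearMap.id t by
            rw [S.tmap_comp, LinearMap.comp_id, LinearMap.id_comp],
          LinearMap.det_comp, det_tmap_id hQ S hS bs hbo hs] at e2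
        have e3 := det_tmap_id hQ S.swap hS bs hao (s := t) ht
        rw [S.tmap_swap] at e3
        rw [e3] at e2
        exact h2 (by linear_combination e2) }
  by_cases hno : NoRoot S M'
  · refine Or.inl (le_antisymm (fun g hg => ⟨?_, hMG hg⟩) hHM)
    exact mem_wreath_of S e P htp (mem_hsub.1 (H.le_hsub hno ((hmem g).2 hg))).2
  · refine Or.inr (le_antisymm hMG ?_)
    obtain ⟨R, hR, hpair⟩ := H.toSq.exists_root_vectors hno
    refine CfsgLib.OrthGeo.omega_le_of_root_vectors hQ (by omega) (hMG.trans CfsgLib.OrthGeo.omegaGL_le) R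
      (fun z hz => ⟨?_, fun w hw => ?_⟩) fun u _ hu0 => hpair u hu0
    · have h0 : bform hQ z z = 0 := (hR z hz).1
      rw [CfsgLib.OrthGeo.b_self hQ] at h0
      exact (mul_eq_zero.1 h0).resolve_left h2
    · obtain ⟨_, ⟨g, hgM, rfl⟩, hge⟩ := (hR z hz).2 w hw
      refine ⟨g, hgM, Matrix.toLin'.injective (LinearMap.ext fun X => ?_)⟩
      rw [Matrix.toLin'_apply, Matrix.toLin'_apply, CfsgLib.OrthGeo.eichlerMat_mulVec hQ]
      refine (hge X).trans ?_
      have hww : S.form w w / 2 = Q w := by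
        rw [hS, CfsgLib.OrthGeo.b_self hQ, mul_div_assoc, mul_div_cancel₀ _ h2]
      rw [eich_apply, hww]

end CfsgLib.OTensorSq17
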