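import Cfsg.Agent.OTensorSq17.Side

/-!
The radical of a member stabiliser, with square spinor norms only.
-/

set_option autoImplicit false
set_option linter.unusedSectionVars false
set_option linter.unusedSimpArgs false
set_option linter.unusedVariables false

namespace CfsgLib.OTensorSq17

open Module CfsgLib.SpO90 CfsgLib.OTensor90

variable {F A B V : Type*} [Field F] [Finite F] [AddCommGroup A] [Module F A] [AddCommGroup B]
  [Module F B] [AddCommGroup V] [Module F V] [FiniteDimensional F A] [FiniteDimensional F B]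
  [FiniteDimensional F V]

namespace Sq

variable {S : Setting F A B V} {M : Subgroup (V ≃ₗ[F] V)}


/-- An element of the radical in `M` is an Eichler map. -/
theorem radical (H : Sq S M) (hno : NoRoot S M) {e e' : A} (hf : Frame S.al e e') {g : V ≃ₗ[F] V}
    (hg : g ∈ M) (hQ : S.InQ e e' g) :
    ∃ a ∈ mid S.al e e', ∀ X, g X = S.tmap (eich S.al e a) LinearMap.id X := by
  classical
  have hkill : ∀ k ∈ M, S.InQ e e' k → S.lev e e' k = 0 → k = 1 := fun k hk hQk h0 => by
    obtain ⟨τ, -, hτ⟩ := hQk.eq_root hf h0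
    refine LinearEquiv.ext fun X => ?_
    rw [hτ, hno e e' hf τ ⟨k, hk, hτ⟩ X, add_zero]
    rfl
  have hx : ∀ a ∈ mid S.al e e', ∃ x ∈ M, S.InQ e e' x ∧ (∀ X, x X = S.tmap (eich S.al e a) LinearMap.id X) ∧
      ∀ r, S.lev e e' x r = -S.tp a r := fun a ha => by
    obtain ⟨x, hx, hxe⟩ := H.eichA_mem hf.left (mem_mid.1 ha).1
    obtain ⟨h1, h2⟩ := S.inQ_eich hf ha hxe
    exact ⟨x, hx, h1, hxe, h2⟩
  let T : Set (B →ₗ[F] V) := {D | ∃ a ∈ mid S.al e e', ∀ r, D r = S.tp a r}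
  let U : Set (B →ₗ[F] V) := {D | ∃ k ∈ M, S.InQ e e' k ∧ S.lev e e' k = D}
  suffices hUT : S.lev e e' g ∈ T by
    obtain ⟨a, ha, hD⟩ := hUT
    obtain ⟨x, hxM, hxQ, hxe, hxl⟩ := hx a ha
    have h1 : g * x = 1 := hkill _ (M.mul_mem hg hxM) (hQ.comp hf hxQ) (LinearMap.ext fun r => by
      rw [hQ.lev_comp hf hxQ, hD, hxl, add_neg_cancel]; rfl)
    obtain ⟨x', hx'M, hx'Q, hx'e, hx'l⟩ := hx (-a) (Submodule.neg_mem _ ha)
    have h2 : g = x' := by
      have h3 : x⁻¹ = x' := by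
        refine inv_eq_of_mul_eq_one_right (LinearEquiv.ext fun X => ?_)
        rw [LinearEquiv.mul_apply, hxe, hx'e, ← LinearMap.comp_apply, S.tmap_comp, LinearMap.id_comp,
          eich_comp S.sym_al hf.left (mem_mid.1 ha).1 (by simp [(mem_mid.1 ha).1]), add_neg_cancel, eich_zero,
          S.tmap_id]
        rfl
      rw [← h3]
      exact eq_inv_of_mul_eq_one_left h1
    exact ⟨-a, Submodule.neg_mem _ ha, fun X => by rw [h2, hx'e]⟩
  by_contra hne
  obtain ⟨w, hw0, hwne⟩ : ∃ w, S.be w w = 0 ∧ w ≠ 0 := by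
    obtain ⟨w, -, h1, h2⟩ := S.sym_be.exists_iso_in (B := ⊤)
      (fun x _ hx => S.be_nd x fun y => hx y trivial) (by rw [finrank_top]; exact H.dB)
    exact ⟨w, h2, h1⟩
  obtain ⟨w', hw⟩ := exists_frame S.sym_be H.wB hw0 hwne
  obtain ⟨p, hp⟩ := CharP.exists F
  have := Fintype.ofFinite F
  have : Fact p.Prime := ⟨CharP.char_is_prime F p⟩
  have : Finite B := Module.finite_of_finite F
  have : Fintype (mid S.be w w') := Fintype.ofFinite _
  let L : mid S.be w w' → V →ₗ[F] V := fun y => S.tmap LinearMap.id (eich S.be w y)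
  let K : mid S.be w w' → Module.End F (B →ₗ[F] V) := fun y =>
    { toFun := fun D => L y ∘ₗ D ∘ₗ eich S.be w (-(y : B))
      map_add' := fun D D' => LinearMap.ext fun r => by simp
      map_smul' := fun c D => LinearMap.ext fun r => by simp }
  have hmy : ∀ y : mid S.be w w', S.be w (y : B) = 0 := fun y => (mem_mid.1 y.2).1
  have hK : ∀ y z, K y * K z = K (y + z) := fun y z => LinearMap.ext fun D => LinearMap.ext fun r => by
    simp only [Module.End.mul_apply, K, LinearMap.coe_mk, AddHom.coe_mk, LinearMap.comp_apply, L,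
      Submodule.coe_add]
    rw [← LinearMap.comp_apply (f := S.tmap LinearMap.id (eich S.be w (y : B))), S.tmap_comp, LinearMap.id_comp,
      eich_comp S.sym_be hw.left (hmy y) (hmy z), ← LinearMap.comp_apply (f := eich S.be w (-(z : B))),
      eich_comp S.sym_be hw.left (by simp [hmy z]) (by simp [hmy y]), neg_add_rev]
  have hK0 : K 0 = 1 := LinearMap.ext fun D => LinearMap.ext fun r => by
    simp [K, L, eich_zero, S.tmap_id]
  have hKn : ∀ y (n : ℕ), K y ^ n = K (n • y) := fun y n => by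
    induction n with
    | zero => rw [pow_zero, zero_smul, hK0]
    | succ n ih => rw [pow_succ, ih, hK, succ_nsmul]
  let Δ : mid S.be w w' → Module.End F (B →ₗ[F] V) := fun y => K y - 1
  have hKD : ∀ k ∈ M, S.InQ e e' k → ∀ y, ∃ k' ∈ M, S.InQ e e' k' ∧
      S.lev e e' k' = K y (S.lev e e' k) := by
    intro k hk hQk y
    obtain ⟨m, hm, hme⟩ := H.eichB_mem hw.left (hmy y)
    obtain ⟨hQ', hl⟩ := hQk.conjB hf (H.iso m hm) one_ne_zero (eich_isIso S.sym_be hw.left (hmy y))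
      (fun X => by rw [hme, one_smul])
    refine ⟨_, M.mul_mem (M.mul_mem hm hk) (M.inv_mem hm), hQ', LinearMap.ext fun r => ?_⟩
    show _ = L y (S.lev e e' k (eich S.be w (-(y : B)) r))
    rw [← hl, ← LinearMap.comp_apply (f := eich S.be w (y : B)), eich_comp S.sym_be hw.left (hmy y) (by simp [hmy y]),
      add_neg_cancel, eich_zero]
    rfl
  have hTfix : ∀ y, ∀ D ∈ T, Δ y D = 0 := fun y D ⟨a, ha, hD⟩ => LinearMap.ext fun r => by
    simp only [Δ, LinearMap.sub_apply, K, LinearMap.coe_mk, AddHom.coe_mk, LinearMap.comp_apply, Module.End.one_apply,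
      hD, L, S.tmap_tp, LinearMap.id_apply]
    rw [← LinearMap.comp_apply (f := eich S.be w (y : B)), eich_comp S.sym_be hw.left (hmy y) (by simp [hmy y]),
      add_neg_cancel, eich_zero]
    simp
  obtain ⟨D, ⟨k, hk, hQk, rfl⟩, hkT, hfix⟩ := exists_all_mem Δ (n := p)
    (fun y => sub_one_pow_char (p := p) (by
      rw [hKn, show p • y = 0 by rw [← Nat.cast_smul_eq_nsmul F, CharP.cast_eq_zero, zero_smul], hK0]))
    (fun y z => by
      show (K y - 1) * (K z - 1) = (K z - 1) * (K y - 1)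
      rw [sub_mul, mul_sub, mul_sub, sub_mul, mul_sub, mul_sub, hK, hK, add_comm y z, one_mul, mul_one, one_mul,
        one_mul, mul_one]
      abel)
    (T := T) (U := U) ⟨0, Submodule.zero_mem _, fun r => by simp⟩
    (fun y D hD => by rw [hTfix y D hD]; exact ⟨0, Submodule.zero_mem _, fun r => by simp⟩)
    (fun y D ⟨k, hk, hQk, hD⟩ => by
      obtain ⟨k', hk', hQk', hD'⟩ := hKD k hk hQk y
      refine ⟨k' * k⁻¹, M.mul_mem hk' (M.inv_mem hk), hQk'.comp hf (hQk.inv hf), LinearMap.ext fun r => ?_⟩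
      rw [hQk'.lev_comp hf (hQk.inv hf), hQk.lev_inv hf, hD', hD]
      simp [Δ, sub_eq_add_neg])
    Finset.univ (x := S.lev e e' g) ⟨g, hg, hQ, rfl⟩ hne
  refine hkT ?_
  set D := S.lev e e' k
  have hzero : ∀ r, S.pi e (D r) = 0 ∧ S.pi e' (D r) = 0 := fun r =>
    ⟨S.pi_left_p0 hf _, S.pi_right_p0 hf _⟩
  have hsa : ∀ a ∈ mid S.al e e', ∀ u v, S.be (S.pi a (D u)) v = S.be u (S.pi a (D v)) := by
    intro a ha u v
    obtain ⟨x, hxM, hxQ, hxe, hxl⟩ := hx a ha
    have hcom : k * x = x * k := by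
      have h1 : k * x * k⁻¹ * x⁻¹ = 1 := hkill _
        (M.mul_mem (M.mul_mem (M.mul_mem hk hxM) (M.inv_mem hk)) (M.inv_mem hxM))
        (((hQk.comp hf hxQ).comp hf (hQk.inv hf)).comp hf (hxQ.inv hf)) (LinearMap.ext fun r => by
          rw [((hQk.comp hf hxQ).comp hf (hQk.inv hf)).lev_comp hf (hxQ.inv hf),
            (hQk.comp hf hxQ).lev_comp hf (hQk.inv hf), hQk.lev_comp hf hxQ, hQk.lev_inv hf, hxQ.lev_inv hf]
          simp)
      exact eq_mul_of_mul_inv_eq (by rw [← mul_inv_eq_one, h1])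
    have := hQk.bracket hf hxQ hcom v u
    rw [hxl, hxl, map_neg, map_neg, LinearMap.neg_apply, neg_inj] at this
    rw [S.be_pi, S.be_symm u, S.be_pi, this, S.form_symm]
  have hforms : ∀ a ∈ mid S.al e e', ∃ c d : F, ∀ x, S.pi a (D x) = c • x + (d * S.be w x) • w := by
    intro a ha
    refine fixed_selfadj S.sym_be hw H.dB H.exists_sq_ne_one (φ := S.pi a ∘ₗ D) (hsa a ha) fun y hy => ?_
    obtain ⟨a', ha', he⟩ := hfix ⟨y, hy⟩ (Finset.mem_univ _)
    refine ⟨S.al a' a, fun x => ?_⟩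
    have h1 := congrArg (S.pi a) (he (eich S.be w y x))
    simp only [Δ, LinearMap.sub_apply, K, LinearMap.coe_mk, AddHom.coe_mk, LinearMap.comp_apply,
      Module.End.one_apply, L, map_sub, S.pi_tp] at h1
    rw [← LinearMap.comp_apply (f := eich S.be w (-y)),
      eich_comp S.sym_be hw.left (by simp [(mem_mid.1 hy).1]) (mem_mid.1 hy).1,
      neg_add_cancel, eich_zero, LinearMap.id_apply] at h1
    have h2 : ∀ X, S.pi a (S.tmap LinearMap.id (eich S.be w y) X) = eich S.be w y (S.pi a X) := fun X => by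
      have h3 : S.pi a ∘ₗ S.tmap LinearMap.id (eich S.be w y) = eich S.be w y ∘ₗ S.pi a :=
        S.hom_ext fun c v => by simp
      exact LinearMap.congr_fun h3 X
    rw [h2] at h1
    simpa using h1
  obtain ⟨a₀, ha₀, c₀, hc₀, hD⟩ := Setting.exists_lev_form hf hw hzero hforms
  obtain ⟨r0, ⟨m, hm, hme⟩, hr0, l, hl0, hr0w, hr0w'⟩ := H.swapB_mem hw
  obtain ⟨hQ', hl⟩ := hQk.conjB hf (H.iso m hm) one_ne_zero hr0.1 fun X => by rw [hme, one_smul]
  have hcom : k * (m * k * m⁻¹) = m * k * m⁻¹ * k := by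
    set k' := m * k * m⁻¹
    have hk' : k' ∈ M := M.mul_mem (M.mul_mem hm hk) (M.inv_mem hm)
    have h1 : k * k' * k⁻¹ * k'⁻¹ = 1 := hkill _
      (M.mul_mem (M.mul_mem (M.mul_mem hk hk') (M.inv_mem hk)) (M.inv_mem hk'))
      (((hQk.comp hf hQ').comp hf (hQk.inv hf)).comp hf (hQ'.inv hf)) (LinearMap.ext fun r => by
        rw [((hQk.comp hf hQ').comp hf (hQk.inv hf)).lev_comp hf (hQ'.inv hf),
          (hQk.comp hf hQ').lev_comp hf (hQk.inv hf), hQk.lev_comp hf hQ', hQk.lev_inv hf, hQ'.lev_inv hf]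
        simp)
    exact eq_mul_of_mul_inv_eq (by rw [← mul_inv_eq_one, h1])
  have hb := hQk.bracket hf hQ' hcom w w'
  have hl1 : S.lev e e' (m * k * m⁻¹) w = S.tp a₀ w + (l * l) • S.tp c₀ w' := by
    have := hl (l • w')
    rw [map_smul, hr0w', smul_smul, mul_inv_cancel₀ hl0, one_smul] at this
    rw [this, hD]
    simp [hw.pair, hr0w', hr0w, smul_smul, mul_inv_cancel₀ hl0]
  have hl2 : S.lev e e' (m * k * m⁻¹) w' = S.tp a₀ w' := by
    have := hl (l⁻¹ • w)
    rw [map_smul, hr0w, smul_smul, inv_mul_cancel₀ hl0, one_smul] at this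
    rw [this, hD]
    simp [hw.left, hr0w, smul_smul, inv_mul_cancel₀ hl0]
  rw [hl1, hl2, hD, hD] at hb
  simp [S.form_tp, hw.left, hw.right, hw.pair, hw.pair' S.sym_be] at hb
  have hc00 : c₀ = 0 := hf.aniso' hc₀ (hb.resolve_left hl0)
  exact ⟨a₀, ha₀, fun r => by rw [hD, hc00]; simp⟩

end Sq

end CfsgLib.OTensorSq17
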