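import Cfsg.Agent.OTensor90.Top

/-!
Groups of isometries containing the products of the two groups of square spinor norm of a tensor decomposition
into two three-dimensional orthogonal spaces.
-/

set_option autoImplicit false
set_option linter.unusedSectionVars false
set_option linter.unusedSimpArgs false
set_option linter.unusedVariables false

namespace CfsgLib.OTensorSq17

open Module CfsgLib.SpO90 CfsgLib.OTensor90

section pairs

variable {F : Type*} [Field F] [Finite F] {W : Type*} [AddCommGroup W] [Module F W] [FiniteDimensional F W]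
variable {β : LinearMap.BilinForm F W} {e e' : W}

/-- An Eichler map is the product of two reflections in vectors of the same norm. -/
lemma eich_eq_refl_refl (hs : Sym β) {y : W} (he : β e e = 0) (hy : β e y = 0) (hyy : β y y ≠ 0) :
    β (y + (-(β y y / 2)) • e) (y + (-(β y y / 2)) • e) = β y y ∧
      eich β e y = refl β y ∘ₗ refl β (y + (-(β y y / 2)) • e) := by
  have h2 := hs.two_ne
  have hye : β y e = 0 := by rw [hs.symm]; exact hy
  have hv : β (y + (-(β y y / 2)) • e) (y + (-(β y y / 2)) • e) = β y y := by simp [he, hy, hye]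
  refine ⟨hv, LinearMap.ext fun x => ?_⟩
  simp only [eich_apply, LinearMap.comp_apply, refl_apply, hv]
  simp only [map_add, map_sub, map_smul, LinearMap.add_apply, LinearMap.smul_apply, smul_eq_mul, hye]
  match_scalars <;> field_simp <;> ring

/-- The squares of the rotations of a hyperbolic plane are products of two reflections of square norms. -/
lemma scale_eq_refl_refl (hs : Sym β) (hf : Frame β e e') {k : F} (hk : k ≠ 0) :
    IsSquare (β (e + e') (e + e') * β (e + k ^ 2 • e') (e + k ^ 2 • e')) ∧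
      β (e + e') (e + e') ≠ 0 ∧ β (e + k ^ 2 • e') (e + k ^ 2 • e') ≠ 0 ∧
      ∃ b, b = refl β (e + e') ∘ₗ refl β (e + k ^ 2 • e') ∧
      IsSO β b ∧ b e = k ^ 2 • e ∧ b e' = (k ^ 2)⁻¹ • e' ∧ ∀ z ∈ mid β e e', b z = z := by
  have h2 := hs.two_ne
  have h1 : β (e + e') (e + e') = 2 := by
    simp [hf.left, hf.right, hf.pair, hf.pair' hs]; ring
  have h3 : β (e + k ^ 2 • e') (e + k ^ 2 • e') = 2 * k ^ 2 := by
    simp [hf.left, hf.right, hf.pair, hf.pair' hs]; ring
  have h10 : β (e + e') (e + e') ≠ 0 := by rw [h1]; exact h2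
  have h30 : β (e + k ^ 2 • e') (e + k ^ 2 • e') ≠ 0 := by rw [h3]; exact mul_ne_zero h2 (pow_ne_zero _ hk)
  refine ⟨⟨2 * k, by rw [h1, h3]; ring⟩, h10, h30, _, rfl, isSO_refl_refl hs h10 h30, ?_, ?_, fun z hz => ?_⟩
  · simp only [LinearMap.comp_apply, refl_apply, h1, h3]
    simp only [map_add, map_sub, map_smul, LinearMap.add_apply, LinearMap.smul_apply, smul_eq_mul, hf.left, hf.right,
      hf.pair, hf.pair' hs]
    match_scalars <;> field_simp <;> ring
  · simp only [LinearMap.comp_apply, refl_apply, h1, h3]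
    simp only [map_add, map_sub, map_smul, LinearMap.add_apply, LinearMap.smul_apply, smul_eq_mul, hf.left, hf.right,
      hf.pair, hf.pair' hs]
    match_scalars <;> field_simp <;> ring
  · obtain ⟨z1, z2⟩ := mem_mid.1 hz
    rw [LinearMap.comp_apply, Sym.refl_perp (v := e + k ^ 2 • e') (x := z) (by simp [z1, z2]),
      Sym.refl_perp (by simp [z1, z2])]

/-- An isometry exchanging the lines of a frame which is a product of two reflections of square norms. -/
lemma swap_eq_refl_refl (hs : Sym β) (hf : Frame β e e') (hd : 3 ≤ finrank F W) :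
    ∃ a b, β a a ≠ 0 ∧ β b b ≠ 0 ∧ IsSquare (β a a * β b b) ∧ ∃ l : F, l ≠ 0 ∧
      (refl β a ∘ₗ refl β b) e = l • e' ∧ (refl β a ∘ₗ refl β b) e' = l⁻¹ • e := by
  obtain ⟨y, hy, hy0⟩ := hf.exists_mid_ne hs hd
  obtain ⟨hye, hye'⟩ := mem_mid.1 hy
  have hyy : β y y ≠ 0 := fun h0 => hy0 (hf.aniso' hy h0)
  have h2 := hs.two_ne
  set t := 2 * β y y with ht
  have ht0 : t ≠ 0 := mul_ne_zero h2 hyy
  have hl : β (e + t • e') (e + t • e') = 2 * t := by
    simp [hf.left, hf.right, hf.pair, hf.pair' hs]; ring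
  refine ⟨e + t • e', y, by rw [hl]; exact mul_ne_zero h2 ht0, hyy, ⟨2 * β y y, by rw [hl, ht]; ring⟩, -t,
    neg_ne_zero.2 ht0, ?_, ?_⟩
  · rw [LinearMap.comp_apply, Sym.refl_perp (v := y) (by rw [hs.symm]; exact hye), refl_apply, hl]
    simp only [map_add, map_smul, LinearMap.add_apply, LinearMap.smul_apply, smul_eq_mul, hf.left, hf.pair' hs]
    match_scalars <;> field_simp <;> ring
  · rw [LinearMap.comp_apply, Sym.refl_perp (v := y) (by rw [hs.symm]; exact hye'), refl_apply, hl]
    simp only [map_add, map_smul, LinearMap.add_apply, LinearMap.smul_apply, smul_eq_mul, hf.right, hf.pair]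
    match_scalars <;> field_simp <;> ring

end pairs

variable {F A B V : Type*} [Field F] [Finite F] [AddCommGroup A] [Module F A] [AddCommGroup B]
  [Module F B] [AddCommGroup V] [Module F V] [FiniteDimensional F A] [FiniteDimensional F B]

/-- A group of isometries containing both groups of square spinor norm. -/
structure Sq (S : Setting F A B V) (M : Subgroup (V ≃ₗ[F] V)) : Prop where
  iso : ∀ g ∈ M, ∀ X Y, S.form (g X) (g Y) = S.form X Y
  memA : ∀ a b, S.al a a ≠ 0 → S.al b b ≠ 0 → IsSquare (S.al a a * S.al b b) →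
    InM M (S.tmap (refl S.al a ∘ₗ refl S.al b) LinearMap.id)
  memB : ∀ a b, S.be a a ≠ 0 → S.be b b ≠ 0 → IsSquare (S.be a a * S.be b b) →
    InM M (S.tmap LinearMap.id (refl S.be a ∘ₗ refl S.be b))
  wA : WittOne S.al
  wB : WittOne S.be
  three : finrank F A = 3
  three' : finrank F B = 3
  hq : 5 ≤ Nat.card F

namespace Sq

variable {S : Setting F A B V} {M : Subgroup (V ≃ₗ[F] V)}

lemma swap (H : Sq S M) : Sq S.swap M where
  iso := H.iso
  memA := fun a b ha hb hab => by
    simp only [S.tmap_swap]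
    exact H.memB a b ha hb hab
  memB := fun a b ha hb hab => by
    simp only [S.tmap_swap]
    exact H.memA a b ha hb hab
  wA := H.wB
  wB := H.wA
  three := H.three'
  three' := H.three
  hq := H.hq

lemma dA (H : Sq S M) : 3 ≤ finrank F A := H.three.ge

lemma dB (H : Sq S M) : 3 ≤ finrank F B := H.three'.ge

lemma exists_sq_ne_one (H : Sq S M) : ∃ k : F, k ≠ 0 ∧ k ^ 2 ≠ 1 := by
  classical
  have := Fintype.ofFinite F
  have hq := H.hq
  rw [Nat.card_eq_fintype_card] at hq
  by_contra! h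
  have hle : Fintype.card F ≤ ({0, 1, -1} : Finset F).card := Finset.card_le_card fun k _ => by
    rcases eq_or_ne k 0 with rfl | hk0
    · simp
    · rcases sq_eq_one_iff.1 (h k hk0) with rfl | rfl <;> simp
  have h3 := Finset.card_le_three (a := (0 : F)) (b := 1) (c := -1)
  omega

lemma eichA_mem (H : Sq S M) {e y : A} (he : S.al e e = 0) (hy : S.al e y = 0) :
    InM M (S.tmap (eich S.al e y) LinearMap.id) := by
  by_cases hyy : S.al y y = 0
  · by_cases he0 : e = 0
    · have : eich S.al e y = LinearMap.id := LinearMap.ext fun x => by simp [eich_apply, he0]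
      rw [this, S.tmap_id]
      exact ⟨1, M.one_mem, fun X => rfl⟩
    · obtain ⟨c, rfl⟩ := H.wA e y he hyy hy he0
      have : eich S.al e (c • e) = LinearMap.id := LinearMap.ext fun x => by
        simp [eich_apply, he, smul_smul, mul_comm]
      rw [this, S.tmap_id]
      exact ⟨1, M.one_mem, fun X => rfl⟩
  · obtain ⟨h1, h2⟩ := eich_eq_refl_refl S.sym_al he hy hyy
    rw [h2]
    exact H.memA _ _ hyy (by rwa [h1]) ⟨S.al y y, by rw [h1]⟩

lemma eichB_mem (H : Sq S M) {w y : B} (hw : S.be w w = 0) (hy : S.be w y = 0) :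
    InM M (S.tmap LinearMap.id (eich S.be w y)) := by
  have := H.swap.eichA_mem hw hy
  rwa [S.tmap_swap] at this

lemma scaleB_mem (H : Sq S M) {w w' : B} (hw : Frame S.be w w') {k : F} (hk : k ≠ 0) :
    ∃ b, InM M (S.tmap LinearMap.id b) ∧ IsSO S.be b ∧ b w = k ^ 2 • w ∧ b w' = (k ^ 2)⁻¹ • w' ∧
      ∀ z ∈ mid S.be w w', b z = z := by
  obtain ⟨h1, h2, h3, b, rfl, hb⟩ := scale_eq_refl_refl S.sym_be hw hk
  exact ⟨_, H.memB _ _ h2 h3 h1, hb⟩

lemma swapB_mem (H : Sq S M) {w w' : B} (hw : Frame S.be w w') :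
    ∃ r, InM M (S.tmap LinearMap.id r) ∧ IsSO S.be r ∧ ∃ l : F, l ≠ 0 ∧ r w = l • w' ∧ r w' = l⁻¹ • w := by
  obtain ⟨a, b, ha, hb, hab, hl⟩ := swap_eq_refl_refl S.sym_be hw H.dB
  exact ⟨_, H.memB a b ha hb hab, isSO_refl_refl S.sym_be ha hb, hl⟩

lemma swapA_mem (H : Sq S M) {e e' : A} (he : Frame S.al e e') :
    ∃ r, InM M (S.tmap r LinearMap.id) ∧ IsSO S.al r ∧ ∃ l : F, l ≠ 0 ∧ r e = l • e' ∧ r e' = l⁻¹ • e := by
  obtain ⟨a, b, ha, hb, hab, hl⟩ := swap_eq_refl_refl S.sym_al he H.dA
  exact ⟨_, H.memA a b ha hb hab, isSO_refl_refl S.sym_al ha hb, hl⟩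

end Sq

end CfsgLib.OTensorSq17
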